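import Mathlib
import Cfsg.Prelude.Def_OddOrderLocal
import Cfsg.Prelude.Def_HallClasses
import Cfsg.Agent.Lib.Hall.Basic

/-!
# Set stabilisers in symmetric and alternating groups, and Hall subgroups inside them

Everything is stated for a subgroup `G₀` of `Equiv.Perm α` containing the alternating group, so that the
symmetric and the alternating group are treated at once.
-/

set_option autoImplicit false

open Equiv
open scoped Pointwise

namespace CfsgLib.Generators.HallSym

open Cfsg CfsgLib.Hall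

section Groups

variable {G : Type*} [Group G]

theorem isPiHallOf_iff {π : Set ℕ} {H K : Subgroup G} (hle : H ≤ K) :
    IsPiHallOf π H K ↔ IsPiHall π (H.subgroupOf K) := by
  unfold IsPiHallOf IsPiHall
  rw [Nat.card_congr (Subgroup.subgroupOfEquivOfLe hle).toEquiv]
  exact ⟨fun h => h.2, fun h => ⟨hle, h⟩⟩

theorem isPiHallOf_top {π : Set ℕ} {H : Subgroup G} : IsPiHallOf π H ⊤ ↔ IsPiHall π H := by
  unfold IsPiHallOf IsPiHall
  rw [Subgroup.relIndex_top_right]
  exact ⟨fun h => h.2, fun h => ⟨le_top, h⟩⟩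

variable [Finite G]

theorem isPiHallOf_of_le {π : Set ℕ} {M W K : Subgroup G} (h : IsPiHallOf π M K) (hMW : M ≤ W) (hWK : W ≤ K) :
    IsPiHallOf π M W :=
  ⟨hMW, h.2.1, fun p hp hpπ hd => h.2.2 p hp hpπ
    (hd.trans (Dvd.intro _ (Subgroup.relIndex_mul_relIndex M W K hMW hWK)))⟩

theorem not_dvd_relIndex {π : Set ℕ} {M W K : Subgroup G} (h : IsPiHallOf π M K) (hMW : M ≤ W) (hWK : W ≤ K)
    {p : ℕ} (hp : p.Prime) (hpπ : p ∈ π) : ¬ p ∣ W.relIndex K := fun hd =>
  h.2.2 p hp hpπ (hd.trans (Dvd.intro_left _ (Subgroup.relIndex_mul_relIndex M W K hMW hWK)))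

theorem eq_of_isPiHallOf {π : Set ℕ} {M W K : Subgroup G} (h : IsPiHallOf π M K) (hMW : M ≤ W) (hWK : W ≤ K)
    (hW : ∀ p : ℕ, p.Prime → p ∣ Nat.card W → p ∈ π) : M = W := by
  refine le_antisymm hMW (Subgroup.relIndex_eq_one.1 ?_)
  by_contra hne
  obtain ⟨p, hp, hpd⟩ := Nat.exists_prime_and_dvd hne
  refine (isPiHallOf_of_le h hMW hWK).2.2 p hp (hW p hp (hpd.trans ?_)) hpd
  exact (Subgroup.index_dvd_card (M.subgroupOf W))

theorem relIndex_pos (H K : Subgroup G) : 0 < H.relIndex K :=
  Nat.pos_of_ne_zero (Subgroup.index_ne_zero_of_finite (H := H.subgroupOf K))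

theorem card_eq_mul_relIndex {H K : Subgroup G} (h : H ≤ K) : Nat.card K = Nat.card H * H.relIndex K := by
  rw [← Subgroup.relIndex_bot_left, ← Subgroup.relIndex_bot_left]
  exact (Subgroup.relIndex_mul_relIndex ⊥ H K bot_le h).symm

end Groups

variable {α : Type*} [Fintype α] [DecidableEq α]

/-- The set stabiliser. -/
def setStab (B : Set α) : Subgroup (Perm α) where
  carrier := {g | ∀ x, g x ∈ B ↔ x ∈ B}
  one_mem' := fun _ => Iff.rfl
  mul_mem' := fun {f g} hf hg x => (hf (g x)).trans (hg x)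
  inv_mem' := fun {f} hf x => by
    have := hf (f⁻¹ x)
    rw [Perm.coe_inv, Equiv.apply_symm_apply] at this
    simpa using this.symm

omit [Fintype α] [DecidableEq α] in
theorem mem_setStab {B : Set α} {g : Perm α} : g ∈ setStab B ↔ ∀ x, g x ∈ B ↔ x ∈ B := Iff.rfl

omit [Fintype α] [DecidableEq α] in
theorem setStab_compl (B : Set α) : setStab Bᶜ = setStab B := by
  ext g
  simp [mem_setStab, not_iff_not]

omit [Fintype α] [DecidableEq α] in
theorem mem_setStab_singleton {x : α} {g : Perm α} : g ∈ setStab ({x}ᶜ : Set α) ↔ g x = x := by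
  rw [setStab_compl, mem_setStab]
  refine ⟨fun h => by simpa using (h x).2 rfl, fun h y => ?_⟩
  simp only [Set.mem_singleton_iff]
  exact ⟨fun e => g.injective (e.trans h.symm), fun e => by rw [e, h]⟩

omit [DecidableEq α] in
theorem setStab_eq_stabilizer (B : Set α) : setStab B = MulAction.stabilizer (Perm α) B := by
  ext g
  rw [MulAction.mem_stabilizer_iff, mem_setStab]
  constructor
  · intro h
    ext y
    rw [Set.mem_smul_set_iff_inv_smul_mem, Perm.smul_def]
    have := h (g⁻¹ y)
    rw [Perm.coe_inv, Equiv.apply_symm_apply] at this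
    simpa using this.symm
  · intro h x
    constructor
    · intro hx
      rw [← h, Set.mem_smul_set_iff_inv_smul_mem] at hx
      simpa using hx
    · intro hx
      rw [← h]
      exact ⟨x, hx, rfl⟩

theorem exists_perm_smul {B C : Set α} (h : B.ncard = C.ncard) : ∃ g : Perm α, g • B = C := by
  classical
  have e : {x // x ∈ B} ≃ {x // x ∈ C} := Fintype.equivOfCardEq (by
    rw [← Nat.card_eq_fintype_card, ← Nat.card_eq_fintype_card]
    exact h)
  refine ⟨e.extendSubtype, ?_⟩
  ext y
  rw [Set.mem_smul_set_iff_inv_smul_mem, Perm.smul_def]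
  constructor
  · intro hy
    have := e.extendSubtype_mem _ hy
    simpa using this
  · intro hy
    by_contra hn
    have := e.extendSubtype_not_mem _ hn
    exact this (by simpa using hy)

theorem index_setStab (B : Set α) : (setStab B).index = (Fintype.card α).choose B.ncard := by
  rw [setStab_eq_stabilizer, MulAction.index_stabilizer,
    show MulAction.orbit (Perm α) B = {t | t ⊆ (Set.univ : Set α) ∧ t.ncard = B.ncard} from ?_,
    Set.ncard_powerset_ncard Set.finite_univ, Set.ncard_univ, Nat.card_eq_fintype_card]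
  ext t
  simp only [Set.mem_setOf_eq, Set.subset_univ, true_and, MulAction.mem_orbit_iff]
  constructor
  · rintro ⟨g, rfl⟩
    exact Set.ncard_image_of_injective B g.injective
  · intro h
    exact exists_perm_smul h.symm

theorem eq_top_or_eq_alt {G₀ : Subgroup (Perm α)} (h : alternatingGroup α ≤ G₀) :
    G₀ = ⊤ ∨ G₀ = alternatingGroup α := by
  by_cases h' : G₀ ≤ alternatingGroup α
  · exact Or.inr (le_antisymm h' h)
  · refine Or.inl (eq_top_iff.2 fun g _ => ?_)
    obtain ⟨s, hs, hsA⟩ := Set.not_subset.1 h'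
    have hs' : Perm.sign s = -1 := (Int.units_eq_one_or _).resolve_left fun e => hsA (Perm.mem_alternatingGroup.2 e)
    rcases Int.units_eq_one_or (Perm.sign g) with hg | hg
    · exact h (Perm.mem_alternatingGroup.2 hg)
    · have : g * s ∈ G₀ := h (Perm.mem_alternatingGroup.2 (by rw [map_mul, hg, hs']; rfl))
      simpa using mul_mem this (inv_mem hs)

/-- A subgroup containing an odd permutation covers the quotient by the alternating group. -/
theorem relIndex_inf_eq_index {G₀ W : Subgroup (Perm α)} (h : alternatingGroup α ≤ G₀) {s : Perm α}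
    (hs : s ∈ W) (hsign : Perm.sign s = -1) : (W ⊓ G₀).relIndex G₀ = W.index := by
  rw [Subgroup.inf_relIndex_right]
  rcases eq_top_or_eq_alt h with rfl | rfl
  · exact Subgroup.relIndex_top_right _
  · have htop : alternatingGroup α ⊔ W = ⊤ := by
      rcases eq_top_or_eq_alt (α := α) (G₀ := alternatingGroup α ⊔ W) le_sup_left with e | e
      · exact e
      · exfalso
        have : s ∈ alternatingGroup α ⊔ W := Subgroup.mem_sup_right hs
        rw [e, Perm.mem_alternatingGroup, hsign] at this
        exact absurd this (by decide)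
    have h1 := Subgroup.card_mul_index W
    have h2 := Subgroup.card_mul_index (alternatingGroup α)
    have h3 := Subgroup.relIndex_sup_right (H := W) (K := alternatingGroup α)
    rw [sup_comm, htop, Subgroup.relIndex_top_right] at h3
    have h4 := card_eq_mul_relIndex (inf_le_left : W ⊓ alternatingGroup α ≤ W)
    have h5 := card_eq_mul_relIndex (inf_le_right : W ⊓ alternatingGroup α ≤ alternatingGroup α)
    rw [Subgroup.inf_relIndex_left] at h4
    rw [Subgroup.inf_relIndex_right] at h5
    rw [h4, ← h3] at h1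
    rw [h5] at h2
    have hpos : 0 < Nat.card ↥(W ⊓ alternatingGroup α) * (alternatingGroup α).index :=
      Nat.mul_pos Nat.card_pos (Nat.pos_of_ne_zero Subgroup.index_ne_zero_of_finite)
    refine (Nat.eq_of_mul_eq_mul_left hpos ?_).symm
    linarith

theorem exists_swap_mem_setStab {B : Set α} (h3 : 3 ≤ Fintype.card α) :
    ∃ s ∈ setStab B, Perm.sign s = -1 := by
  classical
  obtain ⟨u, v, huv, hiff⟩ : ∃ u v : α, u ≠ v ∧ (u ∈ B ↔ v ∈ B) := by
    obtain ⟨x, y, z, hxy, hxz, hyz⟩ := Fintype.two_lt_card_iff.1 (show 2 < Fintype.card α by omega)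
    by_cases hx : x ∈ B <;> by_cases hy : y ∈ B
    · exact ⟨x, y, hxy, by tauto⟩
    · by_cases hz : z ∈ B
      · exact ⟨x, z, hxz, by tauto⟩
      · exact ⟨y, z, hyz, by tauto⟩
    · by_cases hz : z ∈ B
      · exact ⟨y, z, hyz, by tauto⟩
      · exact ⟨x, z, hxz, by tauto⟩
    · exact ⟨x, y, hxy, by tauto⟩
  refine ⟨swap u v, fun x => ?_, Perm.sign_swap huv⟩
  rcases eq_or_ne x u with rfl | hxu
  · rw [swap_apply_left]; exact hiff.symm
  · rcases eq_or_ne x v with rfl | hxv
    · rw [swap_apply_right]; exact hiff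
    · rw [swap_apply_of_ne_of_ne hxu hxv]

theorem relIndex_setStab {G₀ : Subgroup (Perm α)} (h : alternatingGroup α ≤ G₀) (h3 : 3 ≤ Fintype.card α)
    (B : Set α) : (setStab B ⊓ G₀).relIndex G₀ = (Fintype.card α).choose B.ncard := by
  obtain ⟨s, hs, hsign⟩ := exists_swap_mem_setStab (B := B) h3
  rw [relIndex_inf_eq_index h hs hsign, index_setStab]

/-- Prime divisors of the order of a set stabiliser. -/
theorem prime_le_of_dvd_card_setStab {B : Set α} {a b : ℕ} (ha : Bᶜ.ncard ≤ a) (hb : B.ncard ≤ b)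
    {p : ℕ} (hp : p.Prime) (hd : p ∣ Nat.card (setStab B)) : p ≤ a ∨ p ≤ b := by
  classical
  let f : setStab B →* Perm {x // x ∈ B} × Perm {x // ¬ x ∈ B} :=
    MonoidHom.mk' (fun g => (Perm.subtypePerm g.1 g.2, Perm.subtypePerm g.1 (fun x => not_congr (g.2 x))))
      fun g g' => by ext x <;> rfl
  have hf : Function.Injective f := by
    intro g g' e
    refine Subtype.ext (Equiv.ext fun x => ?_)
    by_cases hx : x ∈ B
    · exact congrArg Subtype.val (Equiv.congr_fun (congrArg Prod.fst e) ⟨x, hx⟩)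
    · exact congrArg Subtype.val (Equiv.congr_fun (congrArg Prod.snd e) ⟨x, hx⟩)
  have h1 := hd.trans (Subgroup.card_dvd_of_injective f hf)
  rw [Nat.card_prod, Nat.card_perm, Nat.card_perm] at h1
  rcases (Nat.Prime.dvd_mul hp).1 h1 with e | e
  · exact Or.inr (((Nat.Prime.dvd_factorial hp).1 e).trans hb)
  · exact Or.inl (((Nat.Prime.dvd_factorial hp).1 e).trans ha)

/-- The restriction to a stable set. -/
def resHom (B : Set α) (W : Subgroup (Perm α)) (hW : W ≤ setStab B) : W →* Perm {x // x ∈ B} :=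
  MonoidHom.mk' (fun g => Perm.subtypePerm g.1 (hW g.2)) fun g g' => by ext x; rfl

omit [Fintype α] [DecidableEq α] in
theorem resHom_apply {B : Set α} {W : Subgroup (Perm α)} (hW : W ≤ setStab B) (g : W) (x : {x // x ∈ B}) :
    (resHom B W hW g x : α) = (g : Perm α) x := rfl

open Classical in
theorem alternating_le_range {G₀ : Subgroup (Perm α)} (h : alternatingGroup α ≤ G₀) (B : Set α) :
    alternatingGroup {x // x ∈ B} ≤ (resHom B (setStab B ⊓ G₀) inf_le_left).range := by
  intro s hs
  have hmem : Perm.ofSubtype s ∈ setStab B := fun x => by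
    by_cases hx : x ∈ B
    · rw [Perm.ofSubtype_apply_of_mem (f := s) hx]; simp [hx]
    · rw [Perm.ofSubtype_apply_of_not_mem s hx]
  have hA : Perm.ofSubtype s ∈ G₀ := h (by
    rw [Perm.mem_alternatingGroup, Perm.sign_ofSubtype]
    exact Perm.mem_alternatingGroup.1 hs)
  refine ⟨⟨_, hmem, hA⟩, Equiv.ext fun x => Subtype.ext ?_⟩
  rw [resHom_apply]
  exact Perm.ofSubtype_apply_coe s x

open Classical in
/-- Passing to a stable set. -/
theorem exists_down {π : Set ℕ} {G₀ : Subgroup (Perm α)} (h : alternatingGroup α ≤ G₀) {B : Set α}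
    {K : Subgroup (Perm α)} (hK : IsPiHallOf π K (setStab B ⊓ G₀)) :
    ∃ G₁ M₁ : Subgroup (Perm {x // x ∈ B}), alternatingGroup {x // x ∈ B} ≤ G₁ ∧ IsPiHallOf π M₁ G₁ ∧
      (resHom B (setStab B ⊓ G₀) inf_le_left).range = G₁ ∧
      (K.subgroupOf (setStab B ⊓ G₀)).map (resHom B (setStab B ⊓ G₀) inf_le_left) = M₁ := by
  set f := resHom B (setStab B ⊓ G₀) inf_le_left with hf
  refine ⟨f.range, (K.subgroupOf (setStab B ⊓ G₀)).map f, alternating_le_range h B, ?_, rfl, rfl⟩
  have hle : (K.subgroupOf (setStab B ⊓ G₀)).map f ≤ f.range := Subgroup.map_le_range f _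
  rw [isPiHallOf_iff hle]
  have := isPiHall_map (f := f.rangeRestrict) f.rangeRestrict_surjective ((isPiHallOf_iff hK.1).1 hK)
  convert this using 1
  ext ⟨x, hx⟩
  simp only [Subgroup.mem_subgroupOf, Subgroup.mem_map]
  constructor
  · rintro ⟨y, hy, rfl⟩
    exact ⟨y, hy, rfl⟩
  · rintro ⟨y, hy, e⟩
    exact ⟨y, hy, congrArg Subtype.val e⟩

/-- Subgroups of index smaller than the degree contain the alternating group. -/
theorem alternating_le_of_small_index {G₀ M : Subgroup (Perm α)} (h : alternatingGroup α ≤ G₀) (hM : M ≤ G₀)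
    (h5 : 5 ≤ Fintype.card α) (hk : M.relIndex G₀ < Fintype.card α) : alternatingGroup α ≤ M := by
  classical
  set H := M.subgroupOf (alternatingGroup α) with hH
  have hsimple : IsSimpleGroup (alternatingGroup α) :=
    alternatingGroup.isSimpleGroup (by rw [Nat.card_eq_fintype_card]; exact h5)
  have hidx : H.index < Fintype.card α :=
    (Subgroup.relIndex_le_of_le_right h (relIndex_pos M G₀).ne').trans_lt hk
  by_cases hHtop : H = ⊤
  · exact Subgroup.subgroupOf_eq_top.1 hHtop
  exfalso
  rcases IsSimpleGroup.eq_bot_or_eq_top_of_normal H.normalCore inferInstance with hc | hc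
  · have hinj : Function.Injective (MulAction.toPermHom (alternatingGroup α) (alternatingGroup α ⧸ H)) := by
      rw [← MonoidHom.ker_eq_bot_iff, ← Subgroup.normalCore_eq_ker, hc]
    have := Nat.card_le_card_of_injective _ hinj
    rw [Nat.card_perm, ← Subgroup.index_eq_card] at this
    obtain ⟨m, hm⟩ : ∃ m, Fintype.card α = m + 1 := ⟨Fintype.card α - 1, by omega⟩
    haveI : Nontrivial α := Fintype.one_lt_card_iff_nontrivial.1 (by omega)
    have h1 := two_mul_nat_card_alternatingGroup (α := α)
    rw [Nat.card_perm, Nat.card_eq_fintype_card (α := α), hm, Nat.factorial_succ] at h1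
    have h2 := Nat.factorial_le (show H.index ≤ m by omega)
    have h3 : 3 * m.factorial ≤ (m + 1) * m.factorial := Nat.mul_le_mul_right _ (by omega)
    have := Nat.factorial_pos m
    omega
  · exact hHtop (eq_top_iff.2 (hc ▸ H.normalCore_le))

omit [DecidableEq α] in
/-- Orbit and point stabiliser of a transitive subgroup. -/
theorem card_eq_mul_stab {M : Subgroup (Perm α)} (htr : ∀ x y : α, ∃ g ∈ M, g x = y) (x : α) :
    Nat.card M = Fintype.card α * Nat.card ↥(M ⊓ setStab ({x}ᶜ : Set α)) := by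
  haveI : MulAction.IsPretransitive M α := ⟨fun a b => by
    obtain ⟨g, hg, e⟩ := htr a b
    exact ⟨⟨g, hg⟩, e⟩⟩
  have h1 := (MulAction.stabilizer M x).index_mul_card
  rw [MulAction.index_stabilizer_of_transitive, Nat.card_eq_fintype_card (α := α)] at h1
  rw [← h1]
  congr 1
  refine Nat.card_congr ⟨fun g => ⟨(g.1 : Perm α), g.1.2, mem_setStab_singleton.2 g.2⟩,
    fun g => ⟨⟨g.1, g.2.1⟩, mem_setStab_singleton.1 g.2.2⟩, fun _ => rfl, fun _ => rfl⟩

/-- An even double transposition. -/
theorem swap_swap_mem {G₀ : Subgroup (Perm α)} (h : alternatingGroup α ≤ G₀) {u v y z : α}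
    (huv : u ≠ v) (hyz : y ≠ z) : swap y z * swap u v ∈ G₀ :=
  h (Perm.mem_alternatingGroup.2 (by rw [map_mul, Perm.sign_swap huv, Perm.sign_swap hyz]; rfl))

end CfsgLib.Generators.HallSym
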