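import Mathlib

/-!
# Binomial coefficients without small prime factors

If `2 ≤ a ≤ b` and no prime `p ≤ b` divides `(a + b).choose a`, then `(a, b) = (3, 4)`.  The proof is
elementary: the ends `a + b` and `b + 1` of the window are primes, their neighbours divide `a * (a - 1)`,
which leaves two quadratic equations.
-/

set_option autoImplicit false

namespace CfsgLib.Generators.HallSym

open Nat

theorem choose_desc_top {a b i : ℕ} (hi : i ≤ a) :
    (a + b - i).choose (a - i) * (a + b).descFactorial i = (a + b).choose a * a.descFactorial i := by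
  have hk : 0 < (a - i)! * b ! := Nat.mul_pos (Nat.factorial_pos _) (Nat.factorial_pos _)
  refine Nat.eq_of_mul_eq_mul_right hk ?_
  have e1 := Nat.choose_mul_factorial_mul_factorial (show a - i ≤ a + b - i by omega)
  rw [show a + b - i - (a - i) = b by omega] at e1
  have e2 := Nat.choose_mul_factorial_mul_factorial (show a ≤ a + b by omega)
  rw [show a + b - a = b by omega] at e2
  have e3 := Nat.factorial_mul_descFactorial hi
  have e4 := Nat.factorial_mul_descFactorial (show i ≤ a + b by omega)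
  calc _ = ((a + b - i).choose (a - i) * (a - i)! * b !) * (a + b).descFactorial i := by ring
    _ = (a + b).choose a * a ! * b ! := by rw [e1, e4, e2]
    _ = _ := by rw [← e3]; ring

theorem choose_desc_bot {a b i : ℕ} (hi : i ≤ a) :
    (a + b).choose (a - i) * (b + i).descFactorial i = (a + b).choose a * a.descFactorial i := by
  have hk : 0 < (a - i)! * b ! := Nat.mul_pos (Nat.factorial_pos _) (Nat.factorial_pos _)
  refine Nat.eq_of_mul_eq_mul_right hk ?_
  have e1 := Nat.choose_mul_factorial_mul_factorial (show a - i ≤ a + b by omega)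
  rw [show a + b - (a - i) = b + i by omega] at e1
  have e2 := Nat.choose_mul_factorial_mul_factorial (show a ≤ a + b by omega)
  rw [show a + b - a = b by omega] at e2
  have e3 := Nat.factorial_mul_descFactorial hi
  have e4 := Nat.factorial_mul_descFactorial (show i ≤ b + i by omega)
  rw [show b + i - i = b by omega] at e4
  calc _ = (a + b).choose (a - i) * (a - i)! * (b ! * (b + i).descFactorial i) := by ring
    _ = (a + b).choose a * a ! * b ! := by rw [e4, e1, e2]
    _ = _ := by rw [← e3]; ring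

variable {a b : ℕ}

/-- A number all of whose prime factors are at most `b` is prime to the binomial coefficient. -/
theorem coprime_choose (h : ∀ p : ℕ, p.Prime → p ≤ b → ¬ p ∣ (a + b).choose a) {m : ℕ}
    (hm : ∀ p : ℕ, p.Prime → p ∣ m → p ≤ b) : m.Coprime ((a + b).choose a) :=
  Nat.coprime_of_dvd fun p hp hpm hpc => h p hp (hm p hp hpm) hpc

theorem prime_le_of_dvd_of_not_prime {m p : ℕ} (hm : 2 ≤ m) (hmb : m ≤ 2 * b) (hnp : ¬ m.Prime)
    (hp : p.Prime) (hpm : p ∣ m) : p ≤ b := by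
  obtain ⟨k, rfl⟩ := hpm
  rcases (show k = 0 ∨ k = 1 ∨ 2 ≤ k by omega) with rfl | rfl | hk
  · omega
  · exact absurd (by rwa [mul_one]) hnp
  · have : p * 2 ≤ p * k := Nat.mul_le_mul_left p hk
    omega

theorem dvd_desc_top (h : ∀ p : ℕ, p.Prime → p ≤ b → ¬ p ∣ (a + b).choose a) {i m : ℕ} (hi : i ≤ a)
    (hm : 2 ≤ m) (hmb : m ≤ 2 * b) (hnp : ¬ m.Prime) (hd : m ∣ (a + b).descFactorial i) :
    m ∣ a.descFactorial i :=
  (coprime_choose h fun _ hp => prime_le_of_dvd_of_not_prime hm hmb hnp hp).dvd_of_dvd_mul_left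
    (choose_desc_top hi ▸ hd.mul_left _)

theorem dvd_desc_bot (h : ∀ p : ℕ, p.Prime → p ≤ b → ¬ p ∣ (a + b).choose a) {i m : ℕ} (hi : i ≤ a)
    (hm : 2 ≤ m) (hmb : m ≤ 2 * b) (hnp : ¬ m.Prime) (hd : m ∣ (b + i).descFactorial i) :
    m ∣ a.descFactorial i :=
  (coprime_choose h fun _ hp => prime_le_of_dvd_of_not_prime hm hmb hnp hp).dvd_of_dvd_mul_left
    (choose_desc_bot hi ▸ hd.mul_left _)

theorem not_prime_of_even {m : ℕ} (h2 : 2 ∣ m) (hm : 3 ≤ m) : ¬ m.Prime := fun hp => by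
  have := (Nat.prime_dvd_prime_iff_eq Nat.prime_two hp).1 h2
  omega

theorem dvd_gcd_mul {d x y z : ℕ} (h1 : d ∣ x * y) (h2 : d ∣ x * z) : d ∣ x * Nat.gcd y z := by
  rw [← Nat.gcd_mul_left]
  exact Nat.dvd_gcd h1 h2

theorem gcd_mul_dvd' {x y z u v : ℕ} (hy : Nat.gcd x y ∣ u) (hz : Nat.gcd x z ∣ v) :
    Nat.gcd x (y * z) ∣ u * v :=
  (Nat.gcd_mul_right_dvd_mul_gcd x y z).trans (mul_dvd_mul hy hz)

/-- The divisors of `2 ^ 5 * 5 ^ 3 * 7 ^ 2`. -/
theorem divisors_check : ∀ k₁ ∈ Finset.range 33, k₁ ∣ 32 → ∀ k₂ ∈ Finset.range 126, k₂ ∣ 125 →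
    ∀ k₃ ∈ Finset.range 50, k₃ ∣ 49 → (k₁ * k₂ * k₃) % 18 = 14 → 15 ≤ k₁ * k₂ * k₃ →
    (k₁ * k₂ * k₃ - 5) / 3 ∈ [9, 15, 45, 129, 165, 465, 1305, 4665, 13065] := by
  decide +kernel

set_option maxHeartbeats 1000000 in
theorem window (ha : 2 ≤ a) (hab : a ≤ b) (h : ∀ p : ℕ, p.Prime → p ≤ b → ¬ p ∣ (a + b).choose a) :
    a = 3 ∧ b = 4 := by
  -- the ends are primes
  have hn : (a + b).Prime := by
    by_contra hnp
    have := dvd_desc_top h (i := 1) (by omega) (by omega) (by omega) hnp (by simp)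
    simp only [Nat.descFactorial_one] at this
    have := Nat.le_of_dvd (by omega) this
    omega
  have hP : (b + 1).Prime := by
    by_contra hnp
    have := dvd_desc_bot h (i := 1) (by omega) (by omega) (by omega) hnp (by simp)
    simp only [Nat.descFactorial_one] at this
    have := Nat.le_of_dvd (by omega) this
    omega
  have hnodd : (a + b) % 2 = 1 := by
    rcases hn.eq_two_or_odd with e | e <;> omega
  have hPodd : (b + 1) % 2 = 1 := by
    rcases hP.eq_two_or_odd with e | e <;> omega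
  have ha3 : 3 ≤ a := by omega
  have hA2 : a.descFactorial 2 = (a - 1) * a := by simp [Nat.descFactorial_succ]
  have hu : a + b - 1 ∣ (a - 1) * a := hA2 ▸ dvd_desc_top h (by omega) (by omega) (by omega)
    (not_prime_of_even (by omega) (by omega)) (by simp [Nat.descFactorial_succ])
  have hv : b + 2 ∣ (a - 1) * a := hA2 ▸ dvd_desc_bot h (by omega) (by omega) (by omega)
    (not_prime_of_even (by omega) (by omega)) (by simp [Nat.descFactorial_succ])
  rcases (show a = 3 ∨ 4 ≤ a by omega) with rfl | ha4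
  · have := Nat.le_of_dvd (by norm_num) hv
    omega
  exfalso
  -- the gcd of the neighbours is six
  set g := Nat.gcd (a + b - 1) (b + 2) with hg
  have hg6 : g ∣ 6 := by
    have h1 : g ∣ a - 3 := by
      have := Nat.dvd_sub (Nat.gcd_dvd_left (a + b - 1) (b + 2)) (Nat.gcd_dvd_right (a + b - 1) (b + 2))
      rwa [show a + b - 1 - (b + 2) = a - 3 by omega] at this
    have h2 : g ∣ (a - 1) * a := (Nat.gcd_dvd_left _ _).trans hu
    refine (Nat.dvd_gcd h1 h2).trans (gcd_mul_dvd' (u := 2) (v := 3) ?_ ?_)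
    · have := Nat.dvd_sub (Nat.gcd_dvd_right (a - 3) (a - 1)) (Nat.gcd_dvd_left (a - 3) (a - 1))
      rwa [show a - 1 - (a - 3) = 2 by omega] at this
    · have := Nat.dvd_sub (Nat.gcd_dvd_right (a - 3) a) (Nat.gcd_dvd_left (a - 3) a)
      rwa [show a - (a - 3) = 3 by omega] at this
  obtain ⟨k, hk⟩ := Nat.lcm_dvd hu hv
  have hgl := Nat.gcd_mul_lcm (a + b - 1) (b + 2)
  rw [← hg] at hgl
  have hlow : (2 * a - 1) * (a + 2) ≤ (a + b - 1) * (b + 2) := Nat.mul_le_mul (by omega) (by omega)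
  have hkg : k * ((a + b - 1) * (b + 2)) = g * ((a - 1) * a) := by
    rw [hk, ← hgl]; ring
  have hg2 : 2 ∣ g := Nat.dvd_gcd (by omega) (by omega)
  have hk0 : 1 ≤ k := Nat.pos_of_ne_zero fun e => by
    rw [e, mul_zero] at hk
    exact absurd hk (Nat.ne_of_gt (Nat.mul_pos (by omega) (by omega)))
  have hsmall : g = 6 ∧ k ≤ 2 := by
    have hgle := Nat.le_of_dvd (by norm_num) hg6
    have e1 : k * ((2 * a - 1) * (a + 2)) ≤ g * ((a - 1) * a) := (Nat.mul_le_mul_left k hlow).trans hkg.le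
    obtain ⟨c, rfl⟩ : ∃ c, a = c + 4 := ⟨a - 4, by omega⟩
    rw [show 2 * (c + 4) - 1 = 2 * c + 7 by omega, show c + 4 - 1 = c + 3 by omega] at e1
    obtain ⟨t, ht⟩ := hg2
    have hg26 : g = 2 ∨ g = 6 := by
      have : g ≤ 6 := hgle
      rcases (show g = 0 ∨ g = 2 ∨ g = 4 ∨ g = 6 by omega) with e | e | e | e
      · rw [e] at hg6; norm_num at hg6
      · exact Or.inl e
      · rw [e] at hg6; norm_num at hg6
      · exact Or.inr e
    rcases hg26 with e | e
    · exfalso
      rw [e] at e1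
      have := (Nat.mul_le_mul_right ((2 * c + 7) * (c + 4 + 2)) hk0).trans e1
      nlinarith
    · refine ⟨e, ?_⟩
      by_contra hk3
      rw [e] at e1
      have : 3 * ((2 * c + 7) * (c + 4 + 2)) ≤ k * ((2 * c + 7) * (c + 4 + 2)) :=
        Nat.mul_le_mul_right _ (by omega)
      nlinarith
  obtain ⟨hg6', hk2⟩ := hsmall
  have hu6 : 6 ∣ a + b - 1 := hg6' ▸ Nat.gcd_dvd_left _ _
  have hv6 : 6 ∣ b + 2 := hg6' ▸ Nat.gcd_dvd_right _ _
  have ha6 : a % 6 = 3 := by omega
  have hb6 : b % 6 = 4 := by omega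
  rw [hg6'] at hkg
  have hA4 : a.descFactorial 4 = (a - 3) * ((a - 2) * ((a - 1) * a)) := by simp [Nat.descFactorial_succ]
  have hM : a + b - 3 ∣ a.descFactorial 4 := dvd_desc_top h (by omega) (by omega) (by omega)
    (not_prime_of_even (by omega) (by omega)) (by simp [Nat.descFactorial_succ])
  have hM' : b + 4 ∣ a.descFactorial 4 := dvd_desc_bot h (by omega) (by omega) (by omega)
    (not_prime_of_even (by omega) (by omega)) (by
      simp [Nat.descFactorial_succ]
      exact ((dvd_mul_left _ _).mul_left _).mul_left _)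
  rw [hA4] at hM hM'
  rcases (show k = 1 ∨ k = 2 by omega) with rfl | rfl
  · -- `b = 2 a - 2`
    have hb : b = 2 * a - 2 := by
      have e1 : 1 * (((a + b - 1 : ℕ) : ℤ) * ((b + 2 : ℕ) : ℤ)) = 6 * (((a - 1 : ℕ) : ℤ) * (a : ℤ)) := by
        exact_mod_cast hkg
      rw [Nat.cast_sub (by omega), Nat.cast_sub (by omega)] at e1
      push_cast at e1
      have e2 : ((b : ℤ) - 2 * a + 2) * ((b : ℤ) + 3 * a - 1) = 0 := by linear_combination e1
      rcases mul_eq_zero.1 e2 with e | e <;> omega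
    subst hb
    have e : a + (2 * a - 2) - 3 = 3 * a - 5 := by omega
    rw [e] at hM
    have hd : 3 * a - 5 ∣ 40 := by
      refine (Nat.dvd_gcd dvd_rfl hM).trans (?_ : _ ∣ 4 * (1 * (2 * 5)))
      refine gcd_mul_dvd' ?_ (gcd_mul_dvd' ?_ (gcd_mul_dvd' ?_ ?_))
      · have h1 := Nat.gcd_dvd_left (3 * a - 5) (a - 3)
        have h2 := (Nat.gcd_dvd_right (3 * a - 5) (a - 3)).mul_left 3
        have := Nat.dvd_sub h1 h2
        rwa [show 3 * a - 5 - 3 * (a - 3) = 4 by omega] at this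
      · have h1 := Nat.gcd_dvd_left (3 * a - 5) (a - 2)
        have h2 := (Nat.gcd_dvd_right (3 * a - 5) (a - 2)).mul_left 3
        have := Nat.dvd_sub h1 h2
        rwa [show 3 * a - 5 - 3 * (a - 2) = 1 by omega] at this
      · have h1 := Nat.gcd_dvd_left (3 * a - 5) (a - 1)
        have h2 := (Nat.gcd_dvd_right (3 * a - 5) (a - 1)).mul_left 3
        have := Nat.dvd_sub h2 h1
        rwa [show 3 * (a - 1) - (3 * a - 5) = 2 by omega] at this
      · have h1 := Nat.gcd_dvd_left (3 * a - 5) a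
        have h2 := (Nat.gcd_dvd_right (3 * a - 5) a).mul_left 3
        have := Nat.dvd_sub h2 h1
        rwa [show 3 * a - (3 * a - 5) = 5 by omega] at this
    have := Nat.le_of_dvd (by norm_num) hd
    rcases (show a = 9 ∨ a = 15 by omega) with rfl | rfl
    · norm_num at hn
    · exact h 2 Nat.prime_two (by omega) (by decide +kernel)
  · -- the Pell case
    have hprod : (a + b - 3) * (b + 4) = (3 * a + 5) * (a - 2) := by
      have e1 : 2 * (((a + b - 1 : ℕ) : ℤ) * ((b + 2 : ℕ) : ℤ)) = 6 * (((a - 1 : ℕ) : ℤ) * (a : ℤ)) := by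
        exact_mod_cast hkg
      zify [show 1 ≤ a + b by omega, show 3 ≤ a + b by omega, show 2 ≤ a by omega, show 1 ≤ a by omega] at e1 ⊢
      push_cast at e1 ⊢
      linarith
    set G := Nat.gcd (a + b - 3) (b + 4) with hG
    set L := Nat.lcm (a + b - 3) (b + 4) with hL
    have hGL : G * L = (3 * a + 5) * (a - 2) := (Nat.gcd_mul_lcm _ _).trans hprod
    have hL1 : L ∣ (a - 2) * ((a - 3) * ((a - 1) * a)) := by
      have := Nat.lcm_dvd hM hM'
      rwa [show (a - 3) * ((a - 2) * ((a - 1) * a)) = (a - 2) * ((a - 3) * ((a - 1) * a)) by ring] at this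
    have hL2 : L ∣ (a - 2) * (3 * a + 5) := ⟨G, by rw [mul_comm, ← hGL, mul_comm]⟩
    have hL3 : L ∣ (a - 2) * 560 := by
      refine (dvd_gcd_mul hL2 hL1).trans (mul_dvd_mul_left _ (?_ : _ ∣ 14 * (8 * 5)))
      refine gcd_mul_dvd' ?_ (gcd_mul_dvd' ?_ ?_)
      · have h1 := Nat.gcd_dvd_left (3 * a + 5) (a - 3)
        have h2 := (Nat.gcd_dvd_right (3 * a + 5) (a - 3)).mul_left 3
        have := Nat.dvd_sub h1 h2
        rwa [show 3 * a + 5 - 3 * (a - 3) = 14 by omega] at this
      · have h1 := Nat.gcd_dvd_left (3 * a + 5) (a - 1)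
        have h2 := (Nat.gcd_dvd_right (3 * a + 5) (a - 1)).mul_left 3
        have := Nat.dvd_sub h1 h2
        rwa [show 3 * a + 5 - 3 * (a - 1) = 8 by omega] at this
      · have h1 := Nat.gcd_dvd_left (3 * a + 5) a
        have h2 := (Nat.gcd_dvd_right (3 * a + 5) a).mul_left 3
        have := Nat.dvd_sub h1 h2
        rwa [show 3 * a + 5 - 3 * a = 5 by omega] at this
    have hG7 : ((G : ℕ) : ℤ) ∣ (a : ℤ) - 7 := by
      have h1 : (G : ℤ) ∣ ((a + b - 3 : ℕ) : ℤ) := Int.natCast_dvd_natCast.2 (Nat.gcd_dvd_left _ _)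
      have h2 : (G : ℤ) ∣ ((b + 4 : ℕ) : ℤ) := Int.natCast_dvd_natCast.2 (Nat.gcd_dvd_right _ _)
      have := dvd_sub h1 h2
      rwa [Nat.cast_sub (by omega), Nat.cast_add, Nat.cast_add,
        show ((a : ℤ) + b) - ((3 : ℕ) : ℤ) - ((b : ℤ) + ((4 : ℕ) : ℤ)) = (a : ℤ) - 7 by push_cast; ring] at this
    have hG2800 : G ∣ 2800 := by
      have h2 : (G : ℤ) ∣ ((a - 2) * 560 : ℕ) :=
        Int.natCast_dvd_natCast.2 (((Nat.gcd_dvd_left _ _).trans (Nat.dvd_lcm_left _ _)).trans hL3)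
      have := dvd_sub h2 (hG7.mul_right 560)
      rw [Nat.cast_mul, Nat.cast_sub (by omega)] at this
      push_cast at this
      rw [show ((a : ℤ) - 2) * 560 - ((a : ℤ) - 7) * 560 = ((2800 : ℕ) : ℤ) by push_cast; ring] at this
      exact Int.natCast_dvd_natCast.1 this
    have hG4 : ¬ 4 ∣ G := fun h4 => by
      have h1 := h4.trans (Nat.gcd_dvd_left (a + b - 3) (b + 4))
      have h2 := h4.trans (Nat.gcd_dvd_right (a + b - 3) (b + 4))
      obtain ⟨x, hx⟩ : ∃ x, a + b - 1 = 4 * x + 2 := ⟨(a + b - 1) / 4, by omega⟩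
      obtain ⟨y, hy⟩ : ∃ y, b + 2 = 4 * y + 2 := ⟨(b + 2) / 4, by omega⟩
      obtain ⟨z, rfl⟩ : ∃ z, a = 4 * z + 3 := ⟨a / 4, by omega⟩
      rw [hx, hy, show 2 * ((4 * x + 2) * (4 * y + 2)) = 8 * (4 * x * y + 2 * x + 2 * y + 1) by ring,
        show 4 * z + 3 - 1 = 4 * z + 2 by omega,
        show 6 * ((4 * z + 2) * (4 * z + 3)) = 8 * (12 * z * z + 15 * z + 4) + 4 by ring] at hkg
      omega
    have hG350 : G ∣ 350 := by
      obtain ⟨x, y, hx, hy, hxy⟩ := Nat.dvd_mul.1 (show G ∣ 16 * 175 from hG2800)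
      have hx' : x ∣ 2 := by
        have := Nat.le_of_dvd (by norm_num) hx
        have h4x : ¬ 4 ∣ x := fun e => hG4 (hxy ▸ e.mul_right y)
        interval_cases x <;> first | omega | norm_num at hx ⊢
      exact hxy ▸ mul_dvd_mul hx' hy
    have h196 : 3 * a + 5 ∣ 196000 := by
      have : (a - 2) * (3 * a + 5) ∣ (a - 2) * (350 * 560) := by
        rw [mul_comm, ← hGL, show (a - 2) * (350 * 560) = 350 * ((a - 2) * 560) by ring]
        exact mul_dvd_mul hG350 hL3
      exact Nat.dvd_of_mul_dvd_mul_left (by omega) this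
    obtain ⟨k12, k₃, h12, hk₃, e3⟩ := Nat.dvd_mul.1 (show 3 * a + 5 ∣ 32 * 125 * 49 from h196)
    obtain ⟨k₁, k₂, hk₁, hk₂, e2⟩ := Nat.dvd_mul.1 h12
    have hmem := divisors_check k₁ (Finset.mem_range.2 (by have := Nat.le_of_dvd (by norm_num) hk₁; omega)) hk₁
      k₂ (Finset.mem_range.2 (by have := Nat.le_of_dvd (by norm_num) hk₂; omega)) hk₂
      k₃ (Finset.mem_range.2 (by have := Nat.le_of_dvd (by norm_num) hk₃; omega)) hk₃
      (by rw [e2, e3]; omega) (by rw [e2, e3]; omega)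
    rw [e2, e3, show (3 * a + 5 - 5) / 3 = a by omega] at hmem
    simp only [List.mem_cons, List.not_mem_nil, or_false] at hmem
    -- no square discriminant except `a = 9`, where `b = 10` and `19.choose 9` is even
    have hquad : (2 * (b : ℤ) + a + 1) ^ 2 = 13 * (a : ℤ) ^ 2 - 18 * a + 9 := by
      have e1 : 2 * (((a + b - 1 : ℕ) : ℤ) * ((b + 2 : ℕ) : ℤ)) = 6 * (((a - 1 : ℕ) : ℤ) * (a : ℤ)) := by
        exact_mod_cast hkg
      zify [show 1 ≤ a + b by omega, show 1 ≤ a by omega] at e1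
      push_cast at e1
      linarith
    have hsq : IsSquare (13 * (a : ℤ) ^ 2 - 18 * a + 9) := ⟨_, hquad.symm.trans (sq _)⟩
    rcases hmem with rfl | rfl | rfl | rfl | rfl | rfl | rfl | rfl | rfl
    · have : b = 10 := by
        push_cast at hquad
        have e : ((b : ℤ) - 10) * ((b : ℤ) + 20) = 0 := by apply mul_left_cancel₀ (show (4 : ℤ) ≠ 0 by norm_num); linear_combination hquad
        rcases mul_eq_zero.1 e with e | e <;> omega
      subst this
      exact h 2 Nat.prime_two (by norm_num) (by decide +kernel)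
    all_goals
      revert hsq
      norm_num

end CfsgLib.Generators.HallSym
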