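import Mathlib
import Cfsg.Agent.Lib.Generators.HallSym.Basic
import Cfsg.Agent.Lib.Generators.HallSym.Window
import Cfsg.Agent.Lib.PermGroups.PrimeDegreeSylow
import Cfsg.Agent.Lib.CharTheory.Burnside

/-!
# Hall subgroups of symmetric and alternating groups

`classify`: if at least two primes of `π` and at least one prime outside `π` are at most `n`, a Hall
`π`-subgroup of a group between `A_n` and `S_n` is a point stabiliser (`n` prime), the stabiliser of a
`3`-set (`n = 7`) or of a partition into two `4`-sets (`n = 8`).  The induction goes through the point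
stabiliser in the transitive case.
-/

set_option autoImplicit false

open Equiv
open scoped Pointwise

namespace CfsgLib.Generators.HallSym

open Cfsg CfsgLib.Hall

/-- Two primes of `π` are at most `n`. -/
def TwoPrimes (π : Set ℕ) (n : ℕ) : Prop :=
  ∃ r s : ℕ, r.Prime ∧ s.Prime ∧ r ≠ s ∧ r ∈ π ∧ s ∈ π ∧ r ≤ n ∧ s ≤ n

/-- Some prime outside `π` is at most `n`. -/
def NotAll (π : Set ℕ) (n : ℕ) : Prop := ∃ r : ℕ, r.Prime ∧ r ≤ n ∧ r ∉ π

/-- `n` is prime and `π` consists of the smaller primes. -/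
def BelowPrime (π : Set ℕ) (n : ℕ) : Prop := n.Prime ∧ ∀ r : ℕ, r.Prime → r ≤ n → (r ∈ π ↔ r < n)

/-- `π` consists of `2` and `3` among the primes up to `n`. -/
def TwoThree (π : Set ℕ) (n : ℕ) : Prop := ∀ r : ℕ, r.Prime → r ≤ n → (r ∈ π ↔ (r = 2 ∨ r = 3))

/-- The stabiliser of an unordered partition into a set and its complement. -/
def blockStab {α : Type*} (A : Set α) : Subgroup (Perm α) where
  carrier := {g | (∀ x, g x ∈ A ↔ x ∈ A) ∨ ∀ x, g x ∈ A ↔ x ∉ A}
  one_mem' := Or.inl fun _ => Iff.rfl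
  mul_mem' := by
    rintro f g (hf | hf) (hg | hg)
    · exact Or.inl fun x => (hf (g x)).trans (hg x)
    · exact Or.inr fun x => (hf (g x)).trans (hg x)
    · exact Or.inr fun x => (hf (g x)).trans (not_congr (hg x))
    · exact Or.inl fun x => (hf (g x)).trans ((not_congr (hg x)).trans Classical.not_not)
  inv_mem' := by
    rintro f (hf | hf)
    · refine Or.inl fun x => ?_
      have := hf (f⁻¹ x)
      rw [Perm.coe_inv, Equiv.apply_symm_apply] at this
      simpa using this.symm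
    · refine Or.inr fun x => ?_
      have := hf (f⁻¹ x)
      rw [Perm.coe_inv, Equiv.apply_symm_apply] at this
      rw [Perm.coe_inv]
      tauto

/-- The possible Hall subgroups. -/
def Shape {α : Type*} (π : Set ℕ) (G₀ M : Subgroup (Perm α)) : Prop :=
  (BelowPrime π (Nat.card α) ∧ ∃ x : α, M = setStab ({x}ᶜ : Set α) ⊓ G₀) ∨
    (Nat.card α = 7 ∧ TwoThree π 7 ∧ ∃ A : Set α, A.ncard = 3 ∧ M = setStab A ⊓ G₀) ∨
    (Nat.card α = 8 ∧ TwoThree π 8 ∧ ∃ A : Set α, A.ncard = 4 ∧ M = blockStab A ⊓ G₀)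

theorem five_le {π : Set ℕ} {n : ℕ} (h2 : TwoPrimes π n) (hns : NotAll π n) : 5 ≤ n := by
  obtain ⟨r, s, hr, hs, hrs, hrπ, hsπ, hrn, hsn⟩ := h2
  obtain ⟨t, ht, htn, htπ⟩ := hns
  have h1 : t ≠ r := fun e => htπ (e ▸ hrπ)
  have h2 : t ≠ s := fun e => htπ (e ▸ hsπ)
  have := hr.two_le
  have := hs.two_le
  have := ht.two_le
  have : r ≠ 4 := fun e => by rw [e] at hr; norm_num at hr
  have : s ≠ 4 := fun e => by rw [e] at hs; norm_num at hs
  have : t ≠ 4 := fun e => by rw [e] at ht; norm_num at ht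
  omega

theorem not_dvd_choose_prime {a b : ℕ} (hb : b.Prime) (hab : a < b) : ¬ b ∣ (a + b).choose a := by
  intro hd
  have e : (a + b).descFactorial a = a.factorial * (a + b).choose a := Nat.descFactorial_eq_factorial_mul_choose _ _
  have h1 : b ∣ (a + b).descFactorial a := e ▸ hd.mul_left _
  rw [Nat.descFactorial_eq_prod_range, (Nat.prime_iff.1 hb).dvd_finsetProd_iff] at h1
  obtain ⟨i, hi, hbi⟩ := h1
  rw [Finset.mem_range] at hi
  have h2 : b ∣ a - i := by
    have := Nat.dvd_sub hbi (dvd_refl b)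
    rwa [show a + b - i - b = a - i by omega] at this
  have := Nat.le_of_dvd (by omega) h2
  omega

theorem small_choose_table : ∀ b ∈ [7, 8], ∀ a ∈ Finset.range 9, 1 ≤ a → a ≤ b →
    2 ∣ (a + b).choose a ∨ 3 ∣ (a + b).choose a := by decide +kernel

variable {α : Type} [Fintype α] [DecidableEq α]

theorem prime_dvd_card_alternatingGroup {t : ℕ} (ht : t.Prime) (htn : t ≤ Fintype.card α)
    (h4 : 4 ≤ Fintype.card α) : t ∣ Nat.card (alternatingGroup α) := by
  haveI : Nontrivial α := Fintype.one_lt_card_iff_nontrivial.1 (by omega)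
  have h1 := two_mul_nat_card_alternatingGroup (α := α)
  rw [Nat.card_perm, Nat.card_eq_fintype_card (α := α)] at h1
  rcases ht.eq_two_or_odd with rfl | hodd
  · have : 24 ∣ (Fintype.card α).factorial := (by decide : 24 ∣ (4 : ℕ).factorial).trans (Nat.factorial_dvd_factorial h4)
    omega
  · have hcop : t.Coprime 2 := (Nat.coprime_primes ht Nat.prime_two).2 (by omega)
    exact hcop.dvd_of_dvd_mul_left (h1 ▸ (Nat.Prime.dvd_factorial ht).2 htn)

theorem not_alternating_le {π : Set ℕ} {G₀ M : Subgroup (Perm α)} (hM : IsPiHallOf π M G₀)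
    (h5 : 5 ≤ Fintype.card α) (hns : NotAll π (Fintype.card α)) : ¬ alternatingGroup α ≤ M := by
  intro hle
  obtain ⟨t, ht, htn, htπ⟩ := hns
  exact htπ (hM.2.1 t ht ((prime_dvd_card_alternatingGroup ht htn (by omega)).trans (Subgroup.card_dvd_of_le hle)))

theorem le_card_of_prime_dvd {G₀ : Subgroup (Perm α)} {p : ℕ} (hp : p.Prime) (hd : p ∣ Nat.card G₀) :
    p ≤ Fintype.card α := by
  have := hd.trans (Subgroup.card_subgroup_dvd_card G₀)
  rwa [Nat.card_perm, Nat.card_eq_fintype_card, Nat.Prime.dvd_factorial hp] at this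

omit [DecidableEq α] in
theorem exists_two {A : Set α} {m : ℕ} (hm : A.ncard = m) (h2 : 2 ≤ m) : ∃ u ∈ A, ∃ v ∈ A, u ≠ v := by
  obtain ⟨u, hu, v, hv, e⟩ := (Set.one_lt_ncard).1 (show 1 < A.ncard by omega)
  exact ⟨u, hu, v, hv, e⟩

omit [DecidableEq α] in
theorem ncard_add_compl (A : Set α) : A.ncard + Aᶜ.ncard = Fintype.card α := by
  rw [Set.ncard_add_ncard_compl, Nat.card_eq_fintype_card]

theorem swap_mem_setStab {A : Set α} {y z : α} (h : y ∈ A ↔ z ∈ A) : swap y z ∈ setStab A := by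
  intro x
  rcases eq_or_ne x y with rfl | hy
  · rw [swap_apply_left]; exact h.symm
  · rcases eq_or_ne x z with rfl | hz
    · rw [swap_apply_right]; exact h
    · rw [swap_apply_of_ne_of_ne hy hz]

omit [Fintype α] in
theorem swap_swap_fix {u v y z x : α} (hxu : x ≠ u) (hxv : x ≠ v) (hxy : x ≠ y) (hxz : x ≠ z) :
    (swap y z * swap u v) x = x := by
  rw [Perm.mul_apply, swap_apply_of_ne_of_ne hxu hxv, swap_apply_of_ne_of_ne hxy hxz]

section Seven

variable {G₀ M : Subgroup (Perm α)} (h : alternatingGroup α ≤ G₀) (hn : Fintype.card α = 8)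
  (A : α → Set α) (hx : ∀ x, x ∉ A x) (hA : ∀ x, (A x).ncard = 3)
  (hMA : ∀ x, ∀ g : Perm α, g x = x → g ∈ G₀ → (g ∈ M ↔ g ∈ setStab (A x))) (hMG : M ≤ G₀)
include h hn hx hA hMA hMG

omit hn hA hMG in
theorem move_out {x y z z' u v : α} (hu : u ∈ A x) (hv : v ∈ A x) (huv : u ≠ v) (hz : z ∉ A x) (hz' : z' ∉ A x)
    (hzx : z ≠ x) (hz'x : z' ≠ x) (hzz : z ≠ z') (hy : y = x ∨ (y ∈ A x ∧ y ≠ u ∧ y ≠ v)) :
    (swap z z' * swap u v) y = y ∧ (swap z z' * swap u v) ∈ M ∧ (swap z z' * swap u v) z = z' := by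
  have hux : u ≠ x := fun e => hx x (e ▸ hu)
  have hvx : v ≠ x := fun e => hx x (e ▸ hv)
  refine ⟨?_, ?_, ?_⟩
  · rcases hy with rfl | ⟨hyA, hyu, hyv⟩
    · exact swap_swap_fix hux.symm hvx.symm hzx.symm hz'x.symm
    · exact swap_swap_fix hyu hyv (fun e => hz (e ▸ hyA)) (fun e => hz' (e ▸ hyA))
  · refine (hMA x _ (swap_swap_fix hux.symm hvx.symm hzx.symm hz'x.symm) (swap_swap_mem h huv hzz)).2 ?_
    exact mul_mem (swap_mem_setStab (iff_of_false hz hz')) (swap_mem_setStab (iff_of_true hu hv))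
  · rw [Perm.mul_apply, swap_apply_of_ne_of_ne (a := u) (b := v) (x := z) (fun e => hz (by rw [e]; exact hu)) (fun e => hz (by rw [e]; exact hv)), swap_apply_left]

theorem exists_block : ∃ U : Set α, U.ncard = 4 ∧ M ≤ blockStab U := by
  classical
  have hB : ∀ x, (insert x (A x))ᶜ.ncard = 4 := fun x => by
    have := ncard_add_compl (insert x (A x))
    rw [Set.ncard_insert_of_notMem (hx x), hA x, hn] at this
    omega
  have same : ∀ x, ∀ y ∈ A x, insert y (A y) = insert x (A x) := by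
    intro x y hy
    have hyx : y ≠ x := fun e => hx x (e ▸ hy)
    obtain ⟨u, hu, v, hv, huv⟩ : ∃ u ∈ A x \ {y}, ∃ v ∈ A x \ {y}, u ≠ v :=
      exists_two (Set.ncard_sdiff_singleton_of_mem hy) (by rw [hA x])
    have hsub : A y ⊆ insert x (A x) \ {y} := by
      intro z hz
      refine ⟨?_, fun e => hx y (e ▸ hz)⟩
      by_contra hzU
      have hall : (insert x (A x))ᶜ ⊆ A y := by
        intro z' hz'
        rcases eq_or_ne z z' with rfl | hzz
        · exact hz
        obtain ⟨e1, e2, e3⟩ := move_out h A hx hMA hu.1 hv.1 huv (fun e => hzU (Or.inr e))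
          (fun e => hz' (Or.inr e)) (fun e => hzU (Or.inl e)) (fun e => hz' (Or.inl e)) hzz
          (Or.inr ⟨hy, Ne.symm hu.2, Ne.symm hv.2⟩)
        have := ((hMA y _ e1 (hMG e2)).1 e2 z).2 hz
        rwa [e3] at this
      have := Set.ncard_le_ncard hall
      rw [hB x, hA y] at this
      omega
    have heq : A y = insert x (A x) \ {y} := Set.eq_of_subset_of_ncard_le hsub (by
      rw [Set.ncard_sdiff_singleton_of_mem (Set.mem_insert_of_mem _ hy), Set.ncard_insert_of_notMem (hx x), hA x, hA y])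
    rw [heq, Set.insert_sdiff_singleton, Set.insert_eq_of_mem (Set.mem_insert_of_mem _ hy)]
  have equiv : ∀ g ∈ M, ∀ x, g • insert x (A x) = insert (g x) (A (g x)) := by
    intro g hg x
    have hsub : g • A x ⊆ A (g x) := by
      rintro _ ⟨z₀, hz₀, rfl⟩
      by_contra hzA
      have hzA' : g z₀ ∉ A (g x) := hzA
      have hzx : g z₀ ≠ g x := fun e => hx x (g.injective e ▸ hz₀)
      obtain ⟨u, hu, v, hv, huv⟩ := exists_two (hA (g x)) (by norm_num)
      have hall : (insert (g x) (A (g x)))ᶜ ⊆ g • A x := by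
        intro z' hz'
        rcases eq_or_ne (g z₀) z' with rfl | hzz
        · exact ⟨z₀, hz₀, rfl⟩
        obtain ⟨e1, e2, e3⟩ := move_out h A hx hMA hu hv huv hzA' (fun e => hz' (Or.inr e)) hzx
          (fun e => hz' (Or.inl e)) hzz (Or.inl rfl)
        set σ := swap (g z₀) z' * swap u v with hσ
        have hfix : (g⁻¹ * σ * g) x = x := by
          rw [Perm.mul_apply, Perm.mul_apply, e1, Perm.coe_inv, Equiv.symm_apply_apply]
        have hmem : g⁻¹ * σ * g ∈ M := mul_mem (mul_mem (inv_mem hg) e2) hg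
        have := ((hMA x _ hfix (hMG hmem)).1 hmem z₀).2 hz₀
        rw [Perm.mul_apply, Perm.mul_apply, e3] at this
        exact ⟨_, this, by simp⟩
      have := Set.ncard_le_ncard hall
      rw [hB, Set.ncard_smul_set, hA] at this
      omega
    have heq : g • A x = A (g x) := Set.eq_of_subset_of_ncard_le hsub (by rw [Set.ncard_smul_set, hA, hA])
    rw [Set.smul_set_insert, heq, Perm.smul_def]
  obtain ⟨x₀⟩ : Nonempty α := Fintype.card_pos_iff.1 (by omega)
  have hU : ∀ x, (insert x (A x)).ncard = 4 := fun x => by rw [Set.ncard_insert_of_notMem (hx x), hA x]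
  have mem_eq : ∀ x z, z ∈ insert x (A x) → insert z (A z) = insert x (A x) := by
    rintro x z (rfl | hz)
    · rfl
    · exact same x z hz
  refine ⟨insert x₀ (A x₀), hU x₀, fun g hg => ?_⟩
  have hgU := equiv g hg x₀
  have hmem : ∀ z, g z ∈ g • insert x₀ (A x₀) ↔ z ∈ insert x₀ (A x₀) := fun z => Set.smul_mem_smul_set_iff
  by_cases hw : g x₀ ∈ insert x₀ (A x₀)
  · refine Or.inl fun z => ?_
    rw [← hmem z, hgU, mem_eq _ _ hw]
  · refine Or.inr fun z => ?_
    have hdisj : insert (g x₀) (A (g x₀)) ⊆ (insert x₀ (A x₀))ᶜ := fun z hz hz' => hw (by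
      rw [← mem_eq _ _ hz', mem_eq _ _ hz]; exact Set.mem_insert _ _)
    have heq : insert (g x₀) (A (g x₀)) = (insert x₀ (A x₀))ᶜ :=
      Set.eq_of_subset_of_ncard_le hdisj (by rw [hU, hB])
    rw [← hmem z, hgU, heq, Set.mem_compl_iff, not_not]

end Seven

section Eight

theorem no_nine {G₀ M : Subgroup (Perm α)} (h : alternatingGroup α ≤ G₀) (hn : Fintype.card α = 9) (hMG : M ≤ G₀)
    (P : α → Set α) (hx : ∀ x, x ∉ P x) (hP : ∀ x, (P x).ncard = 4)
    (hin : ∀ x, ∀ g : Perm α, g x = x → g ∈ G₀ → g ∈ setStab (P x) → g ∈ M)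
    (hout : ∀ x, ∀ g : Perm α, g x = x → g ∈ M →
      (∀ z, z ≠ x → (g z ∈ P x ↔ z ∈ P x)) ∨ ∀ z, z ≠ x → (g z ∈ P x ↔ z ∉ P x)) : False := by
  classical
  let Q : α → Set α := fun x => (insert x (P x))ᶜ
  have hQ : ∀ x, (Q x).ncard = 4 := fun x => by
    have := ncard_add_compl (insert x (P x))
    rw [Set.ncard_insert_of_notMem (hx x), hP x, hn] at this
    show (insert x (P x))ᶜ.ncard = 4
    omega
  have key : ∀ x C D, ((C = P x ∧ D = Q x) ∨ (C = Q x ∧ D = P x)) → ∀ y ∈ C,
      (P y = insert x (C \ {y}) ∧ Q y = D) ∨ (P y = D ∧ Q y = insert x (C \ {y})) := by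
    intro x C D hCD y hy
    have hCx : x ∉ C := by rcases hCD with ⟨rfl, -⟩ | ⟨rfl, -⟩ <;> simp [Q, hx x]
    have hDx : x ∉ D := by rcases hCD with ⟨-, rfl⟩ | ⟨-, rfl⟩ <;> simp [Q, hx x]
    have hdisj : ∀ z ∈ C, z ∉ D := by
      rcases hCD with ⟨rfl, rfl⟩ | ⟨rfl, rfl⟩ <;> intro z hz hz' <;> simp [Q] at hz hz' <;> tauto
    have hcov : ∀ z, z ≠ x → z ∈ C ∨ z ∈ D := by
      rcases hCD with ⟨rfl, rfl⟩ | ⟨rfl, rfl⟩ <;> intro z hz <;> simp [Q] <;> tauto
    have hC : C.ncard = 4 := by rcases hCD with ⟨rfl, -⟩ | ⟨rfl, -⟩ <;> simp [hP, hQ]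
    have hD : D.ncard = 4 := by rcases hCD with ⟨-, rfl⟩ | ⟨-, rfl⟩ <;> simp [hP, hQ]
    have hyx : y ≠ x := fun e => hCx (e ▸ hy)
    obtain ⟨u, hu, v, hv, huv⟩ : ∃ u ∈ C \ {y}, ∃ v ∈ C \ {y}, u ≠ v :=
      exists_two (Set.ncard_sdiff_singleton_of_mem hy) (by rw [hC]; norm_num)
    have main : ∀ S : Set α, x ∈ S → y ∉ S → S.ncard = 4 →
        (∀ g : Perm α, g x = x → g y = y → g ∈ M → ∀ z ∈ S, g z ∈ S) → S = insert x (C \ {y}) := by
      intro S hxS hyS hS hinv
      refine Set.eq_of_subset_of_ncard_le (fun z hz => ?_) (by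
        rw [Set.ncard_insert_of_notMem (fun e => hCx e.1), Set.ncard_sdiff_singleton_of_mem hy, hC, hS])
      by_contra hzS
      have hzx : z ≠ x := fun e => hzS (Or.inl e)
      have hzD : z ∈ D := (hcov z hzx).resolve_left fun e => hzS (Or.inr ⟨e, fun e' => hyS (e' ▸ hz)⟩)
      have hall : D ⊆ S := by
        intro z' hz'
        rcases eq_or_ne z z' with rfl | hzz
        · exact hz
        have hz'x : z' ≠ x := fun e => hDx (e ▸ hz')
        have hzC : ∀ w ∈ D, ∀ c ∈ C, w ≠ c := fun w hw c hc e => hdisj c hc (e ▸ hw)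
        have e1 : (swap z z' * swap u v) x = x :=
          swap_swap_fix (fun e => hCx (e ▸ hu.1)) (fun e => hCx (e ▸ hv.1)) hzx.symm hz'x.symm
        have e2 : (swap z z' * swap u v) y = y :=
          swap_swap_fix (Ne.symm hu.2) (Ne.symm hv.2) (hzC z hzD y hy).symm (hzC z' hz' y hy).symm
        have e3 : (swap z z' * swap u v) z = z' := by
          rw [Perm.mul_apply, swap_apply_of_ne_of_ne (hzC z hzD u hu.1) (hzC z hzD v hv.1), swap_apply_left]
        have hPD : ∀ w ∈ D, ∀ w' ∈ D, (w ∈ P x ↔ w' ∈ P x) := by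
          rcases hCD with ⟨-, rfl⟩ | ⟨-, rfl⟩
          · intro w hw w' hw'; simp [Q] at hw hw'; exact iff_of_false hw.2 hw'.2
          · intro w hw w' hw'; exact iff_of_true hw hw'
        have hPC : (u ∈ P x ↔ v ∈ P x) := by
          rcases hCD with ⟨rfl, -⟩ | ⟨rfl, -⟩
          · exact iff_of_true hu.1 hv.1
          · have h1 := hu.1; have h2 := hv.1; simp [Q] at h1 h2; exact iff_of_false h1.2 h2.2
        have hmem := hin x _ e1 (swap_swap_mem h huv hzz)
          (mul_mem (swap_mem_setStab (hPD z hzD z' hz')) (swap_mem_setStab hPC))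
        have := hinv _ e1 e2 hmem z hz
        rwa [e3] at this
      have hsub : insert x D ⊆ S := Set.insert_subset hxS hall
      have := Set.ncard_le_ncard hsub
      rw [Set.ncard_insert_of_notMem hDx, hD, hS] at this
      omega
    have hU : (insert y (insert x (C \ {y})))ᶜ = D := by
      rw [Set.insert_comm, Set.insert_sdiff_singleton, Set.insert_eq_of_mem hy]
      ext w
      simp only [Set.mem_compl_iff, Set.mem_insert_iff, not_or]
      exact ⟨fun hw => (hcov w hw.1).resolve_left hw.2, fun hw => ⟨fun e => hDx (e ▸ hw), fun hc => hdisj w hc hw⟩⟩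
    by_cases hxP : x ∈ P y
    · left
      have e := main (P y) hxP (hx y) (hP y) fun g hgx hgy hg z hz => by
        rcases hout y g hgy hg with hh | hh
        · exact (hh z (fun e => hx y (e ▸ hz))).2 hz
        · exact absurd hxP ((hh x hyx.symm).1 (by rw [hgx]; exact hxP))
      refine ⟨e, ?_⟩
      show (insert y (P y))ᶜ = D
      rw [e, hU]
    · right
      have e := main (Q y) (by simp [Q, hxP, hyx.symm]) (by simp [Q]) (hQ y) fun g hgx hgy hg z hz => by
        simp only [Q, Set.mem_compl_iff, Set.mem_insert_iff, not_or] at hz ⊢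
        refine ⟨fun e => hz.1 (g.injective (e.trans hgy.symm)), ?_⟩
        rcases hout y g hgy hg with hh | hh
        · exact fun hm => hz.2 ((hh z hz.1).1 hm)
        · exfalso
          exact hxP (hgx ▸ (hh x hyx.symm).2 hxP)
      refine ⟨?_, e⟩
      rw [← hU, ← e]
      ext w
      simp [Q]
      constructor
      · intro hw; exact ⟨fun e => hx y (e ▸ hw), fun _ => hw⟩
      · intro hw; exact hw.2 hw.1
  obtain ⟨x⟩ : Nonempty α := Fintype.card_pos_iff.1 (by omega)
  obtain ⟨y, hy⟩ : (P x).Nonempty := (Set.ncard_pos).1 (by rw [hP]; norm_num)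
  obtain ⟨z, hz⟩ : (Q x).Nonempty := (Set.ncard_pos).1 (by rw [hQ]; norm_num)
  obtain ⟨c, hc, hcy⟩ : ∃ c ∈ P x, c ≠ y := Set.exists_ne_of_one_lt_ncard (by rw [hP]; norm_num) y
  have hQx : ∀ w ∈ Q x, w ≠ x ∧ w ∉ P x := fun w hw => by simpa [Q] using hw
  have hfx : (P z = insert x (Q x \ {z}) ∧ Q z = P x) ∨ (P z = P x ∧ Q z = insert x (Q x \ {z})) :=
    key x (Q x) (P x) (Or.inr ⟨rfl, rfl⟩) z hz
  have hfy : (P z = insert y (Q x \ {z}) ∧ Q z = insert x (P x \ {y})) ∨
      (P z = insert x (P x \ {y}) ∧ Q z = insert y (Q x \ {z})) := by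
    rcases key x (P x) (Q x) (Or.inl ⟨rfl, rfl⟩) y hy with ⟨e1, e2⟩ | ⟨e1, e2⟩
    · rcases key y (Q y) (P y) (Or.inr ⟨rfl, rfl⟩) z (e2.symm ▸ hz) with f | f <;> rw [e1, e2] at f
      · exact Or.inl f
      · exact Or.inr f
    · rcases key y (P y) (Q y) (Or.inl ⟨rfl, rfl⟩) z (e1.symm ▸ hz) with f | f <;> rw [e1, e2] at f
      · exact Or.inl f
      · exact Or.inr f
  have hS1 : insert x (P x \ {y}) ≠ P x := fun e => hx x (e ▸ Set.mem_insert _ _)
  have hS2 : insert x (P x \ {y}) ≠ insert x (Q x \ {z}) := fun e => by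
    have : c ∈ insert x (Q x \ {z}) := e ▸ Set.mem_insert_of_mem _ ⟨hc, hcy⟩
    rcases this with rfl | ⟨h1, -⟩
    · exact hx _ hc
    · exact (hQx c h1).2 hc
  rcases hfx with ⟨a1, a2⟩ | ⟨a1, a2⟩ <;> rcases hfy with ⟨b1, b2⟩ | ⟨b1, b2⟩
  · exact hS1 (b2.symm.trans a2)
  · exact hS2 (b1.symm.trans a1)
  · exact hS2 (b2.symm.trans a2)
  · exact hS1 (b1.symm.trans a1)

end Eight

theorem blockStab_prime_le {U : Set α} {m : ℕ} (hU : U.ncard ≤ m) (hU' : Uᶜ.ncard ≤ m) {p : ℕ} (hp : p.Prime)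
    (hd : p ∣ Nat.card (blockStab U)) : p ≤ m ∨ p = 2 := by
  classical
  rcases hp.eq_two_or_odd with e | hodd
  · exact Or.inr e
  refine Or.inl ?_
  haveI : Fact p.Prime := ⟨hp⟩
  obtain ⟨g, hg⟩ := exists_prime_orderOf_dvd_card' p hd
  have hsq : (g : Perm α) * g ∈ setStab U := by
    rcases g.2 with h | h
    · exact mul_mem h h
    · exact fun x => (h ((g : Perm α) x)).trans ((not_congr (h x)).trans Classical.not_not)
  have hgU : (g : Perm α) ∈ setStab U := by
    have e : (g : Perm α) = ((g : Perm α) * g) ^ ((p + 1) / 2) := by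
      rw [← sq, ← pow_mul, show 2 * ((p + 1) / 2) = p + 1 by omega, pow_succ, ← Subgroup.coe_pow,
        ← hg, pow_orderOf_eq_one, Subgroup.coe_one, one_mul]
    rw [e]
    exact pow_mem hsq _
  have : p ∣ Nat.card (setStab U) := by
    rw [← hg, ← Subgroup.orderOf_coe g]
    exact (setStab U).orderOf_dvd_natCard hgU
  exact (prime_le_of_dvd_card_setStab hU' hU hp this).elim id id

theorem intransitive {π : Set ℕ} {G₀ M : Subgroup (Perm α)} (h : alternatingGroup α ≤ G₀) (hM : IsPiHallOf π M G₀)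
    (h2 : TwoPrimes π (Fintype.card α)) (h5 : 5 ≤ Fintype.card α)
    (B : Set α) (hMB : M ≤ setStab B) (h1 : 1 ≤ Bᶜ.ncard) (hle : Bᶜ.ncard ≤ B.ncard)
    (ih : TwoPrimes π B.ncard → NotAll π B.ncard →
      BelowPrime π B.ncard ∨ ((B.ncard = 7 ∨ B.ncard = 8) ∧ TwoThree π B.ncard)) :
    Shape π G₀ M := by
  classical
  set b := B.ncard with hb
  set a := Bᶜ.ncard with ha
  have hab : a + b = Fintype.card α := by rw [add_comm]; exact ncard_add_compl B
  have hC : ∀ p : ℕ, p.Prime → p ∈ π → ¬ p ∣ (a + b).choose a := by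
    intro p hp hpπ hd
    refine not_dvd_relIndex hM (le_inf hMB hM.1) inf_le_right hp hpπ ?_
    rw [relIndex_setStab h (by omega), ← hb, ← hab, Nat.choose_symm_of_eq_add (show a + b = b + a by ring)]
    exact hd
  have hle_b : ∀ p : ℕ, p.Prime → p ∈ π → p ≤ a + b → p ≤ b := by
    intro p hp hpπ hpn
    by_contra hpb
    exact hC p hp hpπ (hp.dvd_choose (by omega) (by omega) hpn)
  have h2b : TwoPrimes π b := by
    obtain ⟨r, s, hr, hs, hrs, hrπ, hsπ, hrn, hsn⟩ := h2
    exact ⟨r, s, hr, hs, hrs, hrπ, hsπ, hle_b r hr hrπ (by omega), hle_b s hs hsπ (by omega)⟩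
  by_cases hall : ∀ r : ℕ, r.Prime → r ≤ b → r ∈ π
  · have hno : ∀ p : ℕ, p.Prime → p ≤ b → ¬ p ∣ (a + b).choose a := fun p hp hpb => hC p hp (hall p hp hpb)
    have hW : M = setStab B ⊓ G₀ := by
      refine eq_of_isPiHallOf hM (le_inf hMB hM.1) inf_le_right fun p hp hd => hall p hp ?_
      rcases prime_le_of_dvd_card_setStab le_rfl le_rfl hp (hd.trans (Subgroup.card_dvd_of_le inf_le_left)) with e | e
      · exact e.trans hle
      · exact e
    rcases (show a = 1 ∨ 2 ≤ a by omega) with ha1 | ha2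
    · left
      have hnp : (a + b).Prime := by
        rw [ha1] at hno ⊢
        by_contra hnp
        have hm := Nat.minFac_prime (show 1 + b ≠ 1 by omega)
        have hlt : (1 + b).minFac ≠ 1 + b := fun e => hnp (e ▸ hm)
        have hmle := Nat.minFac_le (show 0 < 1 + b by omega)
        exact hno _ hm (by omega) (by rw [Nat.choose_one_right]; exact Nat.minFac_dvd _)
      rw [Nat.card_eq_fintype_card]
      refine ⟨⟨hab ▸ hnp, fun r hr hrn => ⟨fun hrπ => ?_, fun hlt => hall r hr (by omega)⟩⟩, ?_⟩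
      · have := hle_b r hr hrπ (by omega)
        omega
      · obtain ⟨x, hx⟩ := Set.ncard_eq_one.1 (ha.symm.trans ha1)
        refine ⟨x, ?_⟩
        rw [hW, ← hx, compl_compl]
    · obtain ⟨ea, eb⟩ := window ha2 hle hno
      right; left
      refine ⟨by rw [Nat.card_eq_fintype_card]; omega, fun r hr hrn => ⟨fun hrπ => ?_, fun e => hall r hr (by omega)⟩, Bᶜ, by omega, ?_⟩
      · have := hle_b r hr hrπ (by omega)
        have := hr.two_le
        have : r ≠ 4 := fun e => by rw [e] at hr; norm_num at hr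
        omega
      · rw [hW, setStab_compl]
  · exfalso
    push Not at hall
    rcases ih h2b hall with ⟨hbp, hiff⟩ | ⟨hb78, h23⟩
    · have hb5 : 5 ≤ b := five_le h2b hall
      have h2π : 2 ∈ π := (hiff 2 Nat.prime_two (by omega)).2 (by omega)
      have hab' : a ≠ b := by
        intro e
        refine hC 2 Nat.prime_two h2π ?_
        rw [e, ← two_mul]
        exact Nat.two_dvd_centralBinom_of_one_le (by omega)
      have hno : ∀ p : ℕ, p.Prime → p ≤ b → ¬ p ∣ (a + b).choose a := by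
        intro p hp hpb
        rcases lt_or_eq_of_le hpb with hlt | rfl
        · exact hC p hp ((hiff p hp hpb).2 hlt)
        · exact not_dvd_choose_prime hbp (by omega)
      rcases (show a = 1 ∨ 2 ≤ a by omega) with ha1 | ha2
      · refine hno 2 Nat.prime_two (by omega) ?_
        rw [ha1, Nat.choose_one_right]
        have := hbp.eq_two_or_odd
        omega
      · obtain ⟨-, eb⟩ := window ha2 hle hno
        omega
    · have hb8 : b ∈ [7, 8] := by simpa using hb78
      rcases small_choose_table b hb8 a (Finset.mem_range.2 (by omega)) (by omega) hle with e | e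
      · exact hC 2 Nat.prime_two ((h23 2 Nat.prime_two (by omega)).2 (Or.inl rfl)) e
      · exact hC 3 Nat.prime_three ((h23 3 Nat.prime_three (by omega)).2 (Or.inr rfl)) e

theorem prime_degree {π : Set ℕ} {G₀ M : Subgroup (Perm α)} (h : alternatingGroup α ≤ G₀) (hM : IsPiHallOf π M G₀)
    (h5 : 5 ≤ Fintype.card α) (hns : NotAll π (Fintype.card α)) (htr : ∀ x y : α, ∃ g ∈ M, g x = y)
    (hnp : (Fintype.card α).Prime) {r : ℕ} (hr : r.Prime) (hrπ : r ∈ π) (hrn : r < Fintype.card α)
    (honly : ∀ s : ℕ, s.Prime → s ∈ π → s < Fintype.card α → s = r) : False := by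
  classical
  set n := Fintype.card α with hn
  haveI : Fact n.Prime := ⟨hnp⟩
  haveI : MulAction.IsPretransitive M α := ⟨fun a b => by
    obtain ⟨g, hg, e⟩ := htr a b
    exact ⟨⟨g, hg⟩, e⟩⟩
  have hα : Nat.card α = n := Nat.card_eq_fintype_card
  have hMpos : 0 < Nat.card M := Nat.card_pos
  have hdvd : Nat.card M ∣ n ^ Nat.card M * r ^ Nat.card M := by
    rw [← Nat.factorization_le_iff_dvd hMpos.ne' (by have := hr.pos; positivity)]
    intro p
    by_cases hp : p.Prime ∧ p ∣ Nat.card M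
    · obtain ⟨hp, hpd⟩ := hp
      have hpπ := hM.2.1 p hp hpd
      have hpn := le_card_of_prime_dvd hp hpd
      have hle := (Nat.factorization_lt p hMpos.ne').le
      rw [Nat.factorization_mul (pow_ne_zero _ hnp.ne_zero) (pow_ne_zero _ hr.ne_zero), Finsupp.add_apply,
        Nat.factorization_pow, Nat.factorization_pow]
      simp only [Finsupp.smul_apply, smul_eq_mul]
      rcases lt_or_eq_of_le hpn with hlt | heq
      · rw [honly p hp hpπ hlt] at hle ⊢
        rw [hr.factorization_self]; omega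
      · rw [heq, ← hn] at hle ⊢
        rw [hnp.factorization_self]; omega
    · have : (Nat.card M).factorization p = 0 := by
        by_cases hp' : p.Prime
        · exact Nat.factorization_eq_zero_of_not_dvd fun e => hp ⟨hp', e⟩
        · exact Nat.factorization_eq_zero_of_not_prime _ hp'
      omega
  haveI hsolv : Group.IsSolvable M := CfsgLib.CharTheory.isSolvable_of_card_dvd_pow_mul_pow n r _ _ hnp hr hdvd
  obtain ⟨P⟩ := (inferInstance : Nonempty (Sylow n M))
  have hMnt : ((⊤ : Subgroup M) ≠ ⊥) := by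
    intro e
    have := CfsgLib.PermGroups.prime_degree_dvd_card (G := M) (α := α) hα
    rw [← Subgroup.card_top (G := M), e, Subgroup.card_bot, Nat.dvd_one] at this
    omega
  obtain ⟨k, hk⟩ := hsolv.solvable
  have hex : ∃ k, derivedSeries M k = ⊥ := ⟨k, hk⟩
  have hk0 : Nat.find hex ≠ 0 := fun e => hMnt (by
    have := Nat.find_spec hex
    rwa [e, derivedSeries_zero] at this)
  obtain ⟨j, hj⟩ := Nat.exists_eq_succ_of_ne_zero hk0
  set D := derivedSeries M j with hD
  have hDne : D ≠ ⊥ := Nat.find_min hex (by omega)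
  have hDab : D ≤ Subgroup.centralizer (D : Set M) := by
    rw [← Subgroup.commutator_eq_bot_iff_le_centralizer, hD, ← derivedSeries_succ, ← Nat.succ_eq_add_one, ← hj]
    exact Nat.find_spec hex
  haveI : D.Normal := derivedSeries_normal M j
  have hPD := CfsgLib.PermGroups.le_of_normal_prime_degree (α := α) hα D hDne P
  have hDP : D = (P : Subgroup M) := by
    refine le_antisymm ?_ hPD
    rw [← CfsgLib.PermGroups.centralizer_sylow_prime_degree (α := α) hα P]
    exact hDab.trans (Subgroup.centralizer_le hPD)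
  have hnorm : Subgroup.normalizer ((P : Subgroup M) : Set M) = ⊤ :=
    Subgroup.normalizer_eq_top_iff.2 (hDP ▸ inferInstance)
  obtain ⟨d, hd, hcard⟩ := CfsgLib.PermGroups.exists_card_normalizer_prime_degree (α := α) hα P
  rw [hnorm, Subgroup.card_top] at hcard
  set k := M.relIndex G₀ with hkdef
  have hk1 : Nat.card G₀ = Nat.card M * k := card_eq_mul_relIndex hM.1
  have hrk : ¬ r ∣ k := hM.2.2 r hr hrπ
  have hG : Nat.card G₀ * G₀.index = n.factorial := by
    rw [Subgroup.card_mul_index, Nat.card_perm, hα]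
  have hidx : G₀.index = 1 ∨ G₀.index = 2 := by
    haveI : Nontrivial α := Fintype.one_lt_card_iff_nontrivial.1 (by omega)
    rcases eq_top_or_eq_alt h with rfl | rfl
    · exact Or.inl Subgroup.index_top
    · exact Or.inr alternatingGroup.index_eq_two
  by_cases h6 : n = 5 ∧ r = 2
  · obtain ⟨e5, rfl⟩ := h6
    have h120 : n.factorial = 120 := by rw [e5]; rfl
    rw [e5] at hd
    have hd' : d = 1 ∨ d = 2 ∨ d = 4 := by
      have := Nat.le_of_dvd (by norm_num) hd
      interval_cases d <;> omega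
    have hk5 : k < 5 := by
      rw [hk1, hcard, h120, e5] at hG
      rcases hidx with e | e <;> rw [e] at hG <;> rcases hd' with rfl | rfl | rfl <;> omega
    exact not_alternating_le hM h5 hns (alternating_le_of_small_index h hM.1 h5 (by omega))
  · obtain ⟨m, hm⟩ : ∃ m, n = m + 2 := ⟨n - 2, by omega⟩
    have hfac : n.factorial = n * ((n - 1) * m.factorial) := by
      rw [hm, Nat.factorial_succ, Nat.factorial_succ]; simp
    have hd0 : d ≠ 0 := by
      rintro rfl
      rw [mul_zero] at hcard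
      omega
    have hv := congrArg (fun x => x.factorization r) (hG.trans hfac)
    rw [hk1, hcard] at hv
    have hk0' : k ≠ 0 := (relIndex_pos M G₀).ne'
    simp only [Nat.factorization_mul (mul_ne_zero (mul_ne_zero hnp.ne_zero hd0) hk0') Subgroup.index_ne_zero_of_finite,
      Nat.factorization_mul (mul_ne_zero hnp.ne_zero hd0) hk0', Nat.factorization_mul hnp.ne_zero hd0,
      Nat.factorization_mul hnp.ne_zero (mul_ne_zero (show n - 1 ≠ 0 by omega) m.factorial_ne_zero),
      Nat.factorization_mul (show n - 1 ≠ 0 by omega) m.factorial_ne_zero, Finsupp.add_apply,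
      Nat.factorization_eq_zero_of_not_dvd hrk] at hv
    have hdle : d.factorization r ≤ (n - 1).factorization r :=
      (Nat.factorization_le_iff_dvd hd0 (show n - 1 ≠ 0 by omega)).2 hd r
    have hix : G₀.index.factorization r ≤ if r = 2 then 1 else 0 := by
      rcases hidx with e | e <;> rw [e]
      · simp
      · rw [Nat.prime_two.factorization, Finsupp.single_apply]
        rcases eq_or_ne r 2 with rfl | hr2
        · simp
        · simp [hr2, Ne.symm hr2]
    have hodd : n % 2 = 1 := (hnp.eq_two_or_odd).resolve_left (by omega)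
    rcases hr.eq_two_or_odd with rfl | hro
    · have hn5 : n ≠ 5 := fun e => h6 ⟨e, rfl⟩
      have : 3 ≤ m.factorial.factorization 2 := by
        refine (Nat.prime_two.pow_dvd_iff_le_factorization m.factorial_ne_zero).1 ?_
        exact (by decide : 2 ^ 3 ∣ (5 : ℕ).factorial).trans (Nat.factorial_dvd_factorial (by omega))
      rw [if_pos rfl] at hix
      omega
    · rw [if_neg (by omega)] at hix
      have : 1 ≤ m.factorial.factorization r :=
        hr.factorization_pos_of_dvd m.factorial_ne_zero ((Nat.Prime.dvd_factorial hr).2 (by omega))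
      omega

theorem classify_aux : ∀ (n : ℕ) (α : Type) [Fintype α] [DecidableEq α], Fintype.card α = n →
    ∀ (π : Set ℕ) (G₀ M : Subgroup (Perm α)), alternatingGroup α ≤ G₀ → IsPiHallOf π M G₀ →
      TwoPrimes π n → NotAll π n → Shape π G₀ M := by
  intro n
  induction n using Nat.strong_induction_on with
  | _ n IH =>
  intro α _ _ hcard π G₀ M h hM h2 hns
  classical
  subst hcard
  have h5 := five_le h2 hns
  have ihB : ∀ (B : Set α), B.ncard < Fintype.card α → ∀ K : Subgroup (Perm α),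
      IsPiHallOf π K (setStab B ⊓ G₀) → TwoPrimes π B.ncard → NotAll π B.ncard →
      ∃ G₁ M₁ : Subgroup (Perm {x // x ∈ B}), Shape π G₁ M₁ ∧ (resHom B (setStab B ⊓ G₀) inf_le_left).range = G₁ ∧
        (K.subgroupOf (setStab B ⊓ G₀)).map (resHom B (setStab B ⊓ G₀) inf_le_left) = M₁ := by
    intro B hB K hK h2' hns'
    obtain ⟨G₁, M₁, hA, hM₁, e1, e2⟩ := exists_down h hK
    have hcB : Fintype.card {x // x ∈ B} = B.ncard := by
      rw [← Nat.card_eq_fintype_card]; exact Nat.card_coe_set_eq B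
    exact ⟨G₁, M₁, IH B.ncard hB _ hcB π G₁ M₁ hA hM₁ h2' hns', e1, e2⟩
  have arith : ∀ (B : Set α) (G₁ M₁ : Subgroup (Perm {x // x ∈ B})), Shape π G₁ M₁ →
      BelowPrime π B.ncard ∨ ((B.ncard = 7 ∨ B.ncard = 8) ∧ TwoThree π B.ncard) := by
    intro B G₁ M₁ hS
    have hcB : Fintype.card {x // x ∈ B} = B.ncard := by
      rw [← Nat.card_eq_fintype_card]; exact Nat.card_coe_set_eq B
    rw [Shape, Nat.card_coe_set_eq B] at hS
    rcases hS with ⟨hb, -⟩ | ⟨e, h23, -⟩ | ⟨e, h23, -⟩
    · exact Or.inl hb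
    · exact Or.inr ⟨Or.inl e, e.symm ▸ h23⟩
    · exact Or.inr ⟨Or.inr e, e.symm ▸ h23⟩
  by_cases htr : ∀ x y : α, ∃ g ∈ M, g x = y
  swap
  · push Not at htr
    obtain ⟨x, y, hxy⟩ := htr
    let O : Set α := {z | ∃ g ∈ M, g x = z}
    have hO : M ≤ setStab O := fun g hg z =>
      ⟨fun ⟨k, hk, e⟩ => ⟨g⁻¹ * k, mul_mem (inv_mem hg) hk, by
        rw [Perm.mul_apply, e, Perm.coe_inv, Equiv.symm_apply_apply]⟩,
        fun ⟨k, hk, e⟩ => ⟨g * k, mul_mem hg hk, by rw [Perm.mul_apply, e]⟩⟩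
    have hx : x ∈ O := ⟨1, M.one_mem, rfl⟩
    have hy : y ∈ Oᶜ := fun ⟨g, hg, e⟩ => hxy g hg e
    have hsum := ncard_add_compl O
    have hOpos : 0 < O.ncard := (Set.ncard_pos).2 ⟨x, hx⟩
    have hOcpos : 0 < Oᶜ.ncard := (Set.ncard_pos).2 ⟨y, hy⟩
    obtain ⟨B, hMB, h1, hle⟩ : ∃ B : Set α, M ≤ setStab B ∧ 1 ≤ Bᶜ.ncard ∧ Bᶜ.ncard ≤ B.ncard := by
      rcases le_total Oᶜ.ncard O.ncard with e | e
      · exact ⟨O, hO, hOcpos, e⟩
      · exact ⟨Oᶜ, setStab_compl O ▸ hO, by rw [compl_compl]; exact hOpos, by rw [compl_compl]; exact e⟩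
    refine intransitive h hM h2 h5 B hMB h1 hle fun h2' hns' => ?_
    have hlt : B.ncard < Fintype.card α := by
      have := ncard_add_compl B; omega
    obtain ⟨G₁, M₁, hS, -⟩ := ihB B hlt M (isPiHallOf_of_le hM (le_inf hMB hM.1) inf_le_right) h2' hns'
    exact arith B G₁ M₁ hS
  -- transitive case: the point stabiliser is a Hall subgroup of the point stabiliser
  set n := Fintype.card α with hn
  have hW : ∀ x : α, ({x}ᶜ : Set α).ncard = n - 1 := fun x => by
    have := ncard_add_compl ({x} : Set α)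
    rw [Set.ncard_singleton] at this
    omega
  have hnM : n ∣ Nat.card M := by
    obtain ⟨x⟩ : Nonempty α := Fintype.card_pos_iff.1 (by omega)
    exact ⟨_, card_eq_mul_stab htr x⟩
  have hnπ : ∀ q : ℕ, q.Prime → q ∣ n → q ∈ π := fun q hq hd => hM.2.1 q hq (hd.trans hnM)
  have hK : ∀ x : α, IsPiHallOf π (M ⊓ setStab ({x}ᶜ : Set α)) (setStab ({x}ᶜ : Set α) ⊓ G₀) := by
    intro x
    have hle : M ⊓ setStab ({x}ᶜ : Set α) ≤ setStab ({x}ᶜ : Set α) ⊓ G₀ := le_inf inf_le_right (inf_le_left.trans hM.1)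
    refine ⟨hle, fun p hp hd => hM.2.1 p hp (hd.trans (Subgroup.card_dvd_of_le inf_le_left)), fun p hp hpπ hd => ?_⟩
    refine hM.2.2 p hp hpπ ?_
    have e1 := card_eq_mul_relIndex hle
    have e2 := card_eq_mul_relIndex (inf_le_right : setStab ({x}ᶜ : Set α) ⊓ G₀ ≤ G₀)
    rw [relIndex_setStab h (by omega), hW x, ← hn, ← Nat.choose_symm (show n - 1 ≤ n by omega),
      show n - (n - 1) = 1 by omega, Nat.choose_one_right] at e2
    have e3 := card_eq_mul_relIndex hM.1
    rw [card_eq_mul_stab htr x, ← hn] at e3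
    rw [e1, e3] at e2
    have hpos : 0 < n * Nat.card ↥(M ⊓ setStab ({x}ᶜ : Set α)) := Nat.mul_pos (by omega) Nat.card_pos
    rw [Nat.eq_of_mul_eq_mul_left hpos (show n * Nat.card ↥(M ⊓ setStab ({x}ᶜ : Set α)) * M.relIndex G₀ =
      n * Nat.card ↥(M ⊓ setStab ({x}ᶜ : Set α)) * (M ⊓ setStab ({x}ᶜ : Set α)).relIndex (setStab ({x}ᶜ : Set α) ⊓ G₀) by
        rw [e2]; ring)]
    exact hd
  obtain ⟨t, ht, htn, htπ⟩ := hns
  have htn' : t ≤ n - 1 := by
    rcases lt_or_eq_of_le htn with e | e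
    · omega
    · exact absurd (hnπ t ht (e ▸ dvd_rfl)) htπ
  have hns' : NotAll π (n - 1) := ⟨t, ht, htn', htπ⟩
  have ihx : TwoPrimes π (n - 1) → ∀ x : α, ∃ G₁ M₁ : Subgroup (Perm {y // y ∈ ({x}ᶜ : Set α)}), Shape π G₁ M₁ ∧
      (resHom _ (setStab ({x}ᶜ : Set α) ⊓ G₀) inf_le_left).range = G₁ ∧
      ((M ⊓ setStab ({x}ᶜ : Set α)).subgroupOf (setStab ({x}ᶜ : Set α) ⊓ G₀)).map
        (resHom _ (setStab ({x}ᶜ : Set α) ⊓ G₀) inf_le_left) = M₁ := fun h2' x =>
    ihB _ (by rw [hW x]; omega) _ (hK x) (by rw [hW x]; exact h2') (by rw [hW x]; exact hns')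
  obtain ⟨x₀⟩ : Nonempty α := Fintype.card_pos_iff.1 (by omega)
  by_cases hnp : n.Prime
  · exfalso
    by_cases h2' : TwoPrimes π (n - 1)
    · obtain ⟨G₁, M₁, hS, -⟩ := ihx h2' x₀
      have := arith _ G₁ M₁ hS
      rw [hW x₀] at this
      have hodd := hnp.eq_two_or_odd
      rcases this with ⟨hp1, -⟩ | ⟨e | e, -⟩
      · have := hp1.eq_two_or_odd; omega
      · have : n = 8 := by omega
        rw [this] at hnp; norm_num at hnp
      · have : n = 9 := by omega
        rw [this] at hnp; norm_num at hnp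
    · obtain ⟨r, s, hr, hs, hrs, hrπ, hsπ, hrn, hsn⟩ := h2
      obtain ⟨r', hr', hr'π, hr'n⟩ : ∃ r', r'.Prime ∧ r' ∈ π ∧ r' < n := by
        rcases lt_or_eq_of_le hrn with e | e
        · exact ⟨r, hr, hrπ, e⟩
        · exact ⟨s, hs, hsπ, lt_of_le_of_ne hsn fun e' => hrs (e.trans e'.symm)⟩
      exact prime_degree h hM h5 ⟨t, ht, htn, htπ⟩ htr hnp hr' hr'π hr'n fun q hq hqπ hqn => by
        by_contra hne
        exact h2' ⟨q, r', hq, hr', hne, hqπ, hr'π, by omega, by omega⟩
  -- composite degree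
  have h2' : TwoPrimes π (n - 1) := by
    obtain ⟨r, s, hr, hs, hrs, hrπ, hsπ, hrn, hsn⟩ := h2
    have : r ≠ n := fun e => hnp (e ▸ hr)
    have : s ≠ n := fun e => hnp (e ▸ hs)
    exact ⟨r, s, hr, hs, hrs, hrπ, hsπ, by omega, by omega⟩
  obtain ⟨G₁, M₁, hS, -⟩ := ihx h2' x₀
  have harith := arith _ G₁ M₁ hS
  rw [hW x₀] at harith
  rcases harith with ⟨hp1, hiff⟩ | ⟨he, h23⟩
  · exfalso
    set k := M.relIndex G₀ with hk
    have hk0 : k ≠ 0 := (relIndex_pos M G₀).ne'
    have hkn : k ∣ n.factorial := by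
      have := Subgroup.card_subgroup_dvd_card G₀
      rw [Nat.card_perm, Nat.card_eq_fintype_card (α := α)] at this
      exact (Dvd.intro_left _ (card_eq_mul_relIndex hM.1).symm).trans this
    have hkp : ∀ p : ℕ, p.Prime → p ∣ k → p = n - 1 := by
      intro p hp hpd
      have hpn : p ≤ n := (Nat.Prime.dvd_factorial hp).1 (hpd.trans hkn)
      have hpne : p ≠ n := fun e => hnp (e ▸ hp)
      by_contra hne
      exact hM.2.2 p hp ((hiff p hp (by omega)).2 (by omega)) hpd
    have hk1 := Nat.eq_prime_pow_of_unique_prime_dvd hk0 fun {d} => hkp d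
    have hle1 : k.primeFactorsList.length ≤ 1 := by
      by_contra hlen
      have h2d : (n - 1) ^ 2 ∣ n.factorial := by
        rw [hk1] at hkn; exact (pow_dvd_pow _ (by omega)).trans hkn
      obtain ⟨m, hm⟩ : ∃ m, n = m + 2 := ⟨n - 2, by omega⟩
      rw [hm, show m + 2 - 1 = m + 1 by omega, Nat.factorial_succ, Nat.factorial_succ,
        show (m + 1 + 1) * ((m + 1) * m.factorial) = (m + 1) * ((m + 1 + 1) * m.factorial) by ring, sq] at h2d
      have h3 := Nat.dvd_of_mul_dvd_mul_left (by omega) h2d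
      have hpm : (m + 1).Prime := by rwa [show m + 1 = n - 1 by omega]
      rcases (Nat.Prime.dvd_mul hpm).1 h3 with e | e
      · have := Nat.le_of_dvd (by omega) (Nat.dvd_sub e (dvd_refl (m + 1)))
        omega
      · have := (Nat.Prime.dvd_factorial hpm).1 e
        omega
    refine not_alternating_le hM h5 ⟨t, ht, htn, htπ⟩ (alternating_le_of_small_index h hM.1 h5 ?_)
    show k < n
    rw [hk1]
    exact (Nat.pow_le_pow_right (by omega) hle1).trans_lt (by rw [pow_one]; omega)
  -- degrees eight and nine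
  have hinj : ∀ x : α, Function.Injective (resHom _ (setStab ({x}ᶜ : Set α) ⊓ G₀) inf_le_left) := by
    intro x g g' e
    refine Subtype.ext (Equiv.ext fun y => ?_)
    by_cases hy : y ∈ ({x}ᶜ : Set α)
    · exact (resHom_apply inf_le_left g ⟨y, hy⟩).symm.trans ((congrArg Subtype.val (Equiv.congr_fun e ⟨y, hy⟩)).trans
        (resHom_apply inf_le_left g' ⟨y, hy⟩))
    · have hyx : y = x := by simpa using hy
      rw [hyx, mem_setStab_singleton.1 g.2.1, mem_setStab_singleton.1 g'.2.1]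
  have hpull : ∀ (x : α) (X : Subgroup (Perm {y // y ∈ ({x}ᶜ : Set α)})),
      ((M ⊓ setStab ({x}ᶜ : Set α)).subgroupOf (setStab ({x}ᶜ : Set α) ⊓ G₀)).map
        (resHom _ (setStab ({x}ᶜ : Set α) ⊓ G₀) inf_le_left) =
        X ⊓ (resHom _ (setStab ({x}ᶜ : Set α) ⊓ G₀) inf_le_left).range →
      ∀ (g : Perm α) (hgx : g x = x) (hgG : g ∈ G₀),
        g ∈ M ↔ resHom _ (setStab ({x}ᶜ : Set α) ⊓ G₀) inf_le_left ⟨g, mem_setStab_singleton.2 hgx, hgG⟩ ∈ X := by
    intro x X e g hgx hgG
    set f := resHom _ (setStab ({x}ᶜ : Set α) ⊓ G₀) inf_le_left with hf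
    set g' : ↥(setStab ({x}ᶜ : Set α) ⊓ G₀) := ⟨g, mem_setStab_singleton.2 hgx, hgG⟩ with hg'
    constructor
    · intro hg
      have : f g' ∈ X ⊓ f.range := e ▸ ⟨g', ⟨hg, mem_setStab_singleton.2 hgx⟩, rfl⟩
      exact this.1
    · intro hX
      have : f g' ∈ X ⊓ f.range := ⟨hX, g', rfl⟩
      rw [← e] at this
      obtain ⟨y, hy, ey⟩ := this
      have := hinj x ey
      subst this
      exact hy.1
  have hres : ∀ (x : α) (g : Perm α) (hgx : g x = x) (hgG : g ∈ G₀) (y : α) (hy : y ≠ x),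
      ((resHom _ (setStab ({x}ᶜ : Set α) ⊓ G₀) inf_le_left ⟨g, mem_setStab_singleton.2 hgx, hgG⟩)
        ⟨y, by simpa using hy⟩ : α) = g y := fun x g hgx hgG y hy => resHom_apply _ _ _
  have hcard : ∀ x : α, Fintype.card {y // y ∈ ({x}ᶜ : Set α)} = n - 1 := fun x => by
    rw [← hW x, ← Nat.card_eq_fintype_card]; exact Nat.card_coe_set_eq _
  rcases he with he | he
  · right; right
    have h23' : TwoThree π 8 := fun r hr hr8 => by
      rcases lt_or_eq_of_le hr8 with e | e
      · exact h23 r hr (by omega)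
      · rw [e] at hr; norm_num at hr
    have hA : ∀ x : α, ∃ A : Set α, x ∉ A ∧ A.ncard = 3 ∧
        ∀ g : Perm α, g x = x → g ∈ G₀ → (g ∈ M ↔ g ∈ setStab A) := by
      intro x
      obtain ⟨G₁, M₁, hS, e1, e2⟩ := ihx h2' x
      rw [Shape, Nat.card_coe_set_eq, hW x, he] at hS
      rcases hS with ⟨⟨-, hb⟩, -⟩ | ⟨-, -, A', hA', eM⟩ | ⟨e, -⟩
      · exact absurd ((h23 5 (by norm_num) (by omega)).1 ((hb 5 (by norm_num) (by norm_num)).2 (by norm_num))) (by norm_num)
      · refine ⟨Subtype.val '' A', ?_, ?_, fun g hgx hgG => ?_⟩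
        · rintro ⟨⟨y, hy⟩, -, e⟩; simp at hy; exact hy e
        · rw [Set.ncard_image_of_injective _ Subtype.val_injective, hA']
        rw [hpull x (setStab A') (e2.trans (eM.trans (by rw [e1]))) g hgx hgG]
        constructor
        · intro hg y
          by_cases hy : y = x
          · rw [hy, hgx]
          · have := hg ⟨y, by simpa using hy⟩
            rw [← Subtype.val_injective.mem_set_image, ← Subtype.val_injective.mem_set_image (s := A'),
              hres x g hgx hgG y hy] at this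
            exact this
        · rintro hg ⟨y, hy⟩
          have hyx : y ≠ x := by simpa using hy
          rw [← Subtype.val_injective.mem_set_image, ← Subtype.val_injective.mem_set_image (s := A'),
            hres x g hgx hgG y hyx]
          exact hg y
      · omega
    choose A hAx hA3 hAM using hA
    obtain ⟨U, hU, hMU⟩ := exists_block h (show Fintype.card α = 8 by omega) A hAx hA3 hAM hM.1
    refine ⟨by rw [Nat.card_eq_fintype_card]; omega, h23', U, hU, eq_of_isPiHallOf hM (le_inf hMU hM.1) inf_le_right fun p hp hd => ?_⟩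
    have hUc : Uᶜ.ncard ≤ 4 := by have := ncard_add_compl U; omega
    have hp4 := blockStab_prime_le hU.le hUc hp (hd.trans (Subgroup.card_dvd_of_le inf_le_left))
    have := hp.two_le
    have : p ≠ 4 := fun e => by rw [e] at hp; norm_num at hp
    exact (h23' p hp (by omega)).2 (by omega)
  · exfalso
    have hP : ∀ x : α, ∃ P : Set α, x ∉ P ∧ P.ncard = 4 ∧
        (∀ g : Perm α, g x = x → g ∈ G₀ → g ∈ setStab P → g ∈ M) ∧
        (∀ g : Perm α, g x = x → g ∈ M →
          (∀ z, z ≠ x → (g z ∈ P ↔ z ∈ P)) ∨ ∀ z, z ≠ x → (g z ∈ P ↔ z ∉ P)) := by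
      intro x
      obtain ⟨G₁, M₁, hS, e1, e2⟩ := ihx h2' x
      rw [Shape, Nat.card_coe_set_eq, hW x, he] at hS
      rcases hS with ⟨⟨hp8, -⟩, -⟩ | ⟨e, -⟩ | ⟨-, -, A', hA', eM⟩
      · norm_num at hp8
      · omega
      · have hiff := hpull x (blockStab A') (e2.trans (eM.trans (by rw [e1])))
        refine ⟨Subtype.val '' A', ?_, ?_, fun g hgx hgG hg => ?_, fun g hgx hgM => ?_⟩
        · rintro ⟨⟨y, hy⟩, -, e⟩; simp at hy; exact hy e
        · rw [Set.ncard_image_of_injective _ Subtype.val_injective, hA']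
        · refine (hiff g hgx hgG).2 (Or.inl fun y => ?_)
          rw [← Subtype.val_injective.mem_set_image, ← Subtype.val_injective.mem_set_image (s := A'),
            show ((resHom _ _ inf_le_left ⟨g, mem_setStab_singleton.2 hgx, hgG⟩) y : α) = g y from resHom_apply _ _ _]
          exact hg y
        · rcases (hiff g hgx (hM.1 hgM)).1 hgM with hh | hh
          · refine Or.inl fun z hz => ?_
            have := hh ⟨z, by simpa using hz⟩
            rw [← Subtype.val_injective.mem_set_image, ← Subtype.val_injective.mem_set_image (s := A'),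
              hres x g hgx (hM.1 hgM) z hz] at this
            exact this
          · refine Or.inr fun z hz => ?_
            have := hh ⟨z, by simpa using hz⟩
            rw [← Subtype.val_injective.mem_set_image, ← Subtype.val_injective.mem_set_image (s := A'),
              hres x g hgx (hM.1 hgM) z hz] at this
            exact this
    choose P hPx hP4 hPin hPout using hP
    exact no_nine h (by omega) hM.1 P hPx hP4 hPin hPout

/-- The classification. -/
theorem classify {π : Set ℕ} {G₀ M : Subgroup (Perm α)} (h : alternatingGroup α ≤ G₀) (hM : IsPiHallOf π M G₀)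
    (h2 : TwoPrimes π (Fintype.card α)) (hns : NotAll π (Fintype.card α)) : Shape π G₀ M :=
  classify_aux _ α rfl π G₀ M h hM h2 hns

end CfsgLib.Generators.HallSym
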