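import Mathlib
import Cfsg.Agent.Lib.Generators.HallSym.Classify

/-!
# Existence and conjugacy of Hall subgroups of symmetric and alternating groups
-/

set_option autoImplicit false

open Equiv
open scoped Pointwise

namespace CfsgLib.Generators.HallSym

open Cfsg CfsgLib.Hall

/-- The condition for the existence of a Hall `π`-subgroup in `S_n`. -/
def Cond (π : Set ℕ) (n : ℕ) : Prop :=
  TwoPrimes π n → NotAll π n → BelowPrime π n ∨ ((n = 7 ∨ n = 8) ∧ TwoThree π n)

variable {α : Type} [Fintype α] [DecidableEq α] {π : Set ℕ} {G₀ : Subgroup (Perm α)}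

theorem cond_of_hall (h : alternatingGroup α ≤ G₀) {M : Subgroup (Perm α)} (hM : IsPiHallOf π M G₀) :
    Cond π (Fintype.card α) := fun h2 hns => by
  rcases classify h hM h2 hns with ⟨hb, -⟩ | ⟨e, h23, -⟩ | ⟨e, h23, -⟩ <;> rw [Nat.card_eq_fintype_card] at *
  · exact Or.inl hb
  · exact Or.inr ⟨Or.inl e, e ▸ h23⟩
  · exact Or.inr ⟨Or.inr e, e ▸ h23⟩

theorem index_blockStab {U : Set α} (hn : Fintype.card α = 8) (hU : U.ncard = 4) : (blockStab U).index = 35 := by
  classical
  have hUc : Uᶜ.ncard = 4 := by have := ncard_add_compl U; omega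
  have hle : setStab U ≤ blockStab U := fun g hg => Or.inl hg
  have h1 := Subgroup.relIndex_mul_index hle
  rw [index_setStab, hn, hU] at h1
  obtain ⟨g, hg⟩ := exists_perm_smul (show U.ncard = Uᶜ.ncard by rw [hU, hUc])
  have hgU : ∀ x, g x ∈ U ↔ x ∉ U := fun x => by
    have h' : g x ∈ g • U ↔ x ∈ U := Set.smul_mem_smul_set_iff
    rw [hg, Set.mem_compl_iff] at h'
    tauto
  have hnon : ∀ f : Perm α, (∀ x, f x ∈ U ↔ x ∉ U) → f ∉ setStab U := fun f hf hs => by
    obtain ⟨x, hx⟩ : U.Nonempty := (Set.ncard_pos).1 (by omega)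
    exact (hf x).1 ((hs x).2 hx) hx
  have h2 : (setStab U).relIndex (blockStab U) = 2 := by
    show ((setStab U).subgroupOf (blockStab U)).index = 2
    rw [Subgroup.index_eq_two_iff]
    refine ⟨⟨g, Or.inr hgU⟩, fun b => ?_⟩
    show Xor' ((b : Perm α) * g ∈ setStab U) ((b : Perm α) ∈ setStab U)
    rcases b.2 with hb | hb
    · exact Or.inr ⟨hb, hnon _ fun x => (hb (g x)).trans (hgU x)⟩
    · exact Or.inl ⟨fun x => (hb (g x)).trans ((not_congr (hgU x)).trans not_not), hnon _ hb⟩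
  rw [h2, show (8 : ℕ).choose 4 = 70 by decide] at h1
  omega

theorem prime_le_card {p : ℕ} (hp : p.Prime) {H : Subgroup (Perm α)} (hd : p ∣ Nat.card H) :
    p ≤ Fintype.card α := le_card_of_prime_dvd hp hd

theorem exists_hall_top (hc : Cond π (Fintype.card α)) : ∃ M : Subgroup (Perm α), IsPiHall π M := by
  classical
  set n := Fintype.card α with hn
  have hcardS : Nat.card (Perm α) = n.factorial := by rw [Nat.card_perm, Nat.card_eq_fintype_card]
  by_cases hns : NotAll π n
  swap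
  · refine ⟨⊤, fun p hp hd => ?_, fun p hp _ hd => ?_⟩
    · by_contra hpπ
      exact hns ⟨p, hp, prime_le_card hp hd, hpπ⟩
    · rw [Subgroup.index_top] at hd; exact hp.not_dvd_one hd
  by_cases h2 : TwoPrimes π n
  swap
  · by_cases h1 : ∃ p, p.Prime ∧ p ∈ π ∧ p ≤ n
    · obtain ⟨p, hp, hpπ, hpn⟩ := h1
      haveI : Fact p.Prime := ⟨hp⟩
      obtain ⟨P⟩ := (inferInstance : Nonempty (Sylow p (Perm α)))
      refine ⟨P, fun q hq hd => ?_, fun q hq hqπ hd => ?_⟩
      · rw [P.card_eq_multiplicity] at hd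
        exact (Nat.prime_dvd_prime_iff_eq hq hp).1 (hq.dvd_of_dvd_pow hd) ▸ hpπ
      · have hqn : q ≤ n := (Nat.Prime.dvd_factorial hq).1 (hcardS ▸ hd.trans (Subgroup.index_dvd_card _))
        rcases eq_or_ne q p with rfl | hne
        · exact P.not_dvd_index hd
        · exact h2 ⟨q, p, hq, hp, hne, hqπ, hpπ, hqn, hpn⟩
    · refine ⟨⊥, fun q hq hd => absurd (Subgroup.card_bot (G := Perm α) ▸ hd) hq.not_dvd_one,
        fun q hq hqπ hd => ?_⟩
      rw [Subgroup.index_bot, hcardS] at hd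
      exact h1 ⟨q, hq, hqπ, (Nat.Prime.dvd_factorial hq).1 hd⟩
  have h5 := five_le h2 hns
  rcases hc h2 hns with ⟨hnp, hiff⟩ | ⟨he, h23⟩
  · obtain ⟨x⟩ : Nonempty α := Fintype.card_pos_iff.1 (by omega)
    have hx : ({x}ᶜ : Set α).ncard = n - 1 := by
      have := ncard_add_compl ({x} : Set α)
      rw [Set.ncard_singleton] at this
      omega
    refine ⟨setStab ({x}ᶜ : Set α), fun p hp hd => ?_, fun p hp hpπ hd => ?_⟩
    · have := prime_le_of_dvd_card_setStab (a := 1) (b := n - 1) (by rw [compl_compl, Set.ncard_singleton]) hx.le hp hd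
      have := hp.two_le
      exact (hiff p hp (by omega)).2 (by omega)
    · rw [index_setStab, hx, ← Nat.choose_symm (show n - 1 ≤ n by omega), show n - (n - 1) = 1 by omega,
        Nat.choose_one_right, Nat.prime_dvd_prime_iff_eq hp hnp] at hd
      exact absurd ((hiff p hp hd.le).1 hpπ) (by omega)
  · have h35 : ∀ p : ℕ, p.Prime → p ∈ π → ¬ p ∣ 35 := by
      intro p hp hpπ hd
      rcases (Nat.Prime.dvd_mul hp).1 (show p ∣ 5 * 7 from hd) with e | e
      · rw [(Nat.prime_dvd_prime_iff_eq hp (by norm_num)).1 e] at hpπ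
        exact absurd ((h23 5 (by norm_num) (by omega)).1 hpπ) (by norm_num)
      · rw [(Nat.prime_dvd_prime_iff_eq hp (by norm_num)).1 e] at hpπ
        exact absurd ((h23 7 (by norm_num) (by omega)).1 hpπ) (by norm_num)
    have hsmall : ∀ p : ℕ, p.Prime → p ≤ 4 → p ∈ π := fun p hp hp4 => by
      have := hp.two_le
      have : p ≠ 4 := fun e => by rw [e] at hp; norm_num at hp
      exact (h23 p hp (by omega)).2 (by omega)
    rcases he with he | he
    · obtain ⟨A, -, hA⟩ := Set.exists_subset_card_eq (s := (Set.univ : Set α)) (n := 3)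
        (by rw [Set.ncard_univ, Nat.card_eq_fintype_card]; omega)
      have hAc : Aᶜ.ncard = 4 := by have := ncard_add_compl A; omega
      refine ⟨setStab A, fun p hp hd => hsmall p hp ?_, fun p hp hpπ hd => h35 p hp hpπ ?_⟩
      · exact (prime_le_of_dvd_card_setStab hAc.le hA.le hp hd).elim id (fun e => e.trans (by norm_num))
      · rwa [index_setStab, hA, show Fintype.card α = 7 from he] at hd
    · obtain ⟨A, -, hA⟩ := Set.exists_subset_card_eq (s := (Set.univ : Set α)) (n := 4)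
        (by rw [Set.ncard_univ, Nat.card_eq_fintype_card]; omega)
      have hAc : Aᶜ.ncard = 4 := by have := ncard_add_compl A; omega
      refine ⟨blockStab A, fun p hp hd => hsmall p hp ?_, fun p hp hpπ hd => h35 p hp hpπ ?_⟩
      · rcases blockStab_prime_le hA.le hAc.le hp hd with e | e <;> omega
      · rwa [index_blockStab he hA] at hd

theorem normal_of_alt_le (h : alternatingGroup α ≤ G₀) : G₀.Normal := by
  rcases eq_top_or_eq_alt h with rfl | rfl <;> infer_instance

theorem isPiHallOf_inf (h : alternatingGroup α ≤ G₀) {M₀ : Subgroup (Perm α)} (hM : IsPiHall π M₀) :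
    IsPiHallOf π (M₀ ⊓ G₀) G₀ := by
  haveI := normal_of_alt_le h
  exact (isPiHallOf_iff inf_le_right).2 (isPiHall_inf_subgroupOf hM)

theorem exists_hall (h : alternatingGroup α ≤ G₀) (hc : Cond π (Fintype.card α)) :
    ∃ M, IsPiHallOf π M G₀ := by
  obtain ⟨M₀, hM₀⟩ := exists_hall_top hc
  exact ⟨_, isPiHallOf_inf h hM₀⟩

theorem conj_map_setStab (g : Perm α) (B : Set α) :
    (setStab B).map (MulAut.conj g).toMonoidHom = setStab (g • B) := by
  ext f
  simp only [Subgroup.mem_map, MulEquiv.coe_toMonoidHom, MulAut.conj_apply]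
  constructor
  · rintro ⟨f₀, hf₀, rfl⟩ x
    simp only [Set.mem_smul_set_iff_inv_smul_mem, Perm.smul_def, Perm.mul_apply, Perm.coe_inv,
      Equiv.symm_apply_apply]
    exact hf₀ _
  · intro hf
    refine ⟨g⁻¹ * f * g, fun x => ?_, by group⟩
    have := hf (g x)
    simp only [Set.mem_smul_set_iff_inv_smul_mem, Perm.smul_def, Perm.coe_inv, Equiv.symm_apply_apply] at this
    simpa [Perm.mul_apply] using this

theorem conj_map_blockStab (g : Perm α) (B : Set α) :
    (blockStab B).map (MulAut.conj g).toMonoidHom = blockStab (g • B) := by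
  ext f
  simp only [Subgroup.mem_map, MulEquiv.coe_toMonoidHom, MulAut.conj_apply]
  constructor
  · rintro ⟨f₀, hf₀, rfl⟩
    rcases hf₀ with hf₀ | hf₀
    · refine Or.inl fun x => ?_
      simp only [Set.mem_smul_set_iff_inv_smul_mem, Perm.smul_def, Perm.mul_apply, Perm.coe_inv,
        Equiv.symm_apply_apply]
      exact hf₀ _
    · refine Or.inr fun x => ?_
      simp only [Set.mem_smul_set_iff_inv_smul_mem, Perm.smul_def, Perm.mul_apply, Perm.coe_inv,
        Equiv.symm_apply_apply]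
      exact hf₀ _
  · rintro (hf | hf)
    · refine ⟨g⁻¹ * f * g, Or.inl fun x => ?_, by group⟩
      have := hf (g x)
      simp only [Set.mem_smul_set_iff_inv_smul_mem, Perm.smul_def, Perm.coe_inv, Equiv.symm_apply_apply] at this
      simpa [Perm.mul_apply] using this
    · refine ⟨g⁻¹ * f * g, Or.inr fun x => ?_, by group⟩
      have := hf (g x)
      simp only [Set.mem_smul_set_iff_inv_smul_mem, Perm.smul_def, Perm.coe_inv, Equiv.symm_apply_apply] at this
      simpa [Perm.mul_apply] using this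

theorem exists_even_smul {B B' : Set α} (h3 : 3 ≤ Fintype.card α) (e : B.ncard = B'.ncard) :
    ∃ g ∈ alternatingGroup α, g • B = B' := by
  obtain ⟨g, hg⟩ := exists_perm_smul e
  rcases Int.units_eq_one_or (Perm.sign g) with hs | hs
  · exact ⟨g, Perm.mem_alternatingGroup.2 hs, hg⟩
  · obtain ⟨s, hs', hsign⟩ := exists_swap_mem_setStab (B := B') h3
    refine ⟨s * g, Perm.mem_alternatingGroup.2 (by rw [map_mul, hs, hsign]; rfl), ?_⟩
    rw [mul_smul, hg]
    rw [setStab_eq_stabilizer] at hs'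
    exact hs'

theorem map_conj_inf [hG : G₀.Normal] {g : Perm α} (W : Subgroup (Perm α)) :
    (W ⊓ G₀).map (MulAut.conj g).toMonoidHom = W.map (MulAut.conj g).toMonoidHom ⊓ G₀ := by
  rw [Subgroup.map_inf _ _ _ (MulAut.conj g).injective]
  congr 1
  ext f
  simp only [Subgroup.mem_map, MulEquiv.coe_toMonoidHom, MulAut.conj_apply]
  exact ⟨fun ⟨f₀, hf₀, e⟩ => e ▸ hG.conj_mem f₀ hf₀ g, fun hf => ⟨g⁻¹ * f * g,
    by simpa using hG.conj_mem f hf g⁻¹, by group⟩⟩

/-- Any two Hall subgroups are conjugate in `G₀`. -/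
theorem hall_conj (h : alternatingGroup α ≤ G₀) {M M' : Subgroup (Perm α)} (hM : IsPiHallOf π M G₀)
    (hM' : IsPiHallOf π M' G₀) : ∃ g ∈ G₀, M' = M.map (MulAut.conj g).toMonoidHom := by
  classical
  haveI := normal_of_alt_le h
  set n := Fintype.card α with hn
  by_cases hns : NotAll π n
  swap
  · have hW : ∀ p : ℕ, p.Prime → p ∣ Nat.card G₀ → p ∈ π := fun p hp hd => by
      by_contra hpπ
      exact hns ⟨p, hp, prime_le_card hp hd, hpπ⟩
    refine ⟨1, G₀.one_mem, ?_⟩
    rw [eq_of_isPiHallOf hM hM.1 le_rfl hW, eq_of_isPiHallOf hM' hM'.1 le_rfl hW]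
    ext x; simp
  by_cases h2 : TwoPrimes π n
  swap
  · by_cases h1 : ∃ p, p.Prime ∧ p ∈ π ∧ p ≤ n
    swap
    · have hbot : ∀ L : Subgroup (Perm α), IsPiHallOf π L G₀ → L = ⊥ := fun L hL =>
        Subgroup.eq_bot_of_card_eq _ (by_contra fun hne => by
          obtain ⟨q, hq, hqd⟩ := Nat.exists_prime_and_dvd hne
          exact h1 ⟨q, hq, hL.2.1 q hq hqd, prime_le_card hq hqd⟩)
      exact ⟨1, G₀.one_mem, by rw [hbot M hM, hbot M' hM', Subgroup.map_bot]⟩
    obtain ⟨p, hpf, hpπ, hpn⟩ := h1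
    have hp : ∀ q : ℕ, q.Prime → q ∈ π → q ≤ n → q = p :=
      fun q hq hqπ hqn => by_contra fun hne => h2 ⟨q, p, hq, hpf, hne, hqπ, hpπ, hqn, hpn⟩
    haveI : Fact p.Prime := ⟨hpf⟩
    have hsyl : ∀ L : Subgroup (Perm α), IsPiHallOf π L G₀ → IsPGroup p (L.subgroupOf G₀) := by
      intro L hL
      refine IsPGroup.of_card (n := (Nat.card (L.subgroupOf G₀)).primeFactorsList.length) ?_
      rw [Nat.card_congr (Subgroup.subgroupOfEquivOfLe hL.1).toEquiv]
      exact Nat.eq_prime_pow_of_unique_prime_dvd Nat.card_pos.ne' fun {d} hd hdd =>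
        hp d hd (hL.2.1 d hd hdd) (prime_le_card hd hdd)
    obtain ⟨P, hP⟩ := (hsyl M hM).exists_le_sylow
    obtain ⟨P', hP'⟩ := (hsyl M' hM').exists_le_sylow
    have heq : ∀ (L : Subgroup (Perm α)) (Q : Sylow p G₀), IsPiHallOf π L G₀ → L.subgroupOf G₀ ≤ (Q : Subgroup G₀) →
        L.subgroupOf G₀ = (Q : Subgroup G₀) := by
      intro L Q hL hle
      refine le_antisymm hle (Subgroup.relIndex_eq_one.1 (by_contra fun hne => ?_))
      obtain ⟨q, hq, hqd⟩ := Nat.exists_prime_and_dvd hne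
      have hqQ : q ∣ Nat.card (Q : Subgroup G₀) := hqd.trans (Subgroup.index_dvd_card ((L.subgroupOf G₀).subgroupOf _))
      rw [Q.card_eq_multiplicity] at hqQ
      have := (Nat.prime_dvd_prime_iff_eq hq hpf).1 (hq.dvd_of_dvd_pow hqQ)
      subst this
      exact hL.2.2 q hq hpπ (hqd.trans (Subgroup.relIndex_dvd_index_of_le hle))
    obtain ⟨g, hg⟩ := MulAction.exists_smul_eq G₀ P P'
    refine ⟨g, g.2, ?_⟩
    have e : (M'.subgroupOf G₀) = (M.subgroupOf G₀).map (MulAut.conj g).toMonoidHom := by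
      rw [heq M' P' hM' hP', heq M P hM hP, ← hg, Sylow.coe_subgroup_smul]
      rfl
    have := congrArg (Subgroup.map G₀.subtype) e
    rw [Subgroup.map_map, Subgroup.map_subgroupOf_eq_of_le hM'.1] at this
    rw [this, show G₀.subtype.comp (MulAut.conj g).toMonoidHom = (MulAut.conj (g : Perm α)).toMonoidHom.comp G₀.subtype from rfl,
      ← Subgroup.map_map, Subgroup.map_subgroupOf_eq_of_le hM.1]
  have h5 := five_le h2 hns
  have hsc : ∀ x : α, ({x}ᶜ : Set α).ncard = n - 1 := fun x => by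
    have := ncard_add_compl ({x} : Set α)
    rw [Set.ncard_singleton] at this
    omega
  have key : ∀ {B B' : Set α}, B.ncard = B'.ncard →
      ∃ g ∈ G₀, setStab B' ⊓ G₀ = (setStab B ⊓ G₀).map (MulAut.conj g).toMonoidHom := fun {B B'} e => by
    obtain ⟨g, hg, hgB⟩ := exists_even_smul (by omega) e
    exact ⟨g, h hg, by rw [map_conj_inf, conj_map_setStab, hgB]⟩
  have hex : ∀ {k : ℕ}, BelowPrime π k → k = 7 → TwoThree π 7 → False := by
    rintro k ⟨-, hb⟩ rfl h23
    exact absurd ((h23 5 (by norm_num) (by norm_num)).1 ((hb 5 (by norm_num) (by norm_num)).2 (by norm_num))) (by norm_num)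
  rcases classify h hM h2 hns with ⟨hb, x, rfl⟩ | ⟨e, h23, A, hA, rfl⟩ | ⟨e, h23, A, hA, rfl⟩ <;>
    rcases classify h hM' h2 hns with ⟨hb', x', rfl⟩ | ⟨e', h23', A', hA', rfl⟩ | ⟨e', h23', A', hA', rfl⟩
  · exact key (by rw [hsc, hsc])
  · exact (hex hb e' h23').elim
  · have := hb.1; rw [e'] at this; norm_num at this
  · exact (hex hb' e h23).elim
  · exact key (by rw [hA, hA'])
  · omega
  · have := hb'.1; rw [e] at this; norm_num at this
  · omega
  · obtain ⟨g, hg, hgB⟩ := exists_even_smul (B := A) (B' := A') (by omega) (by rw [hA, hA'])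
    exact ⟨g, h hg, by rw [map_conj_inf, conj_map_blockStab, hgB]⟩

/-- Hall subgroups of `G₀` as a group. -/
theorem isPiHall_iff_map {H : Subgroup G₀} : IsPiHall π H ↔ IsPiHallOf π (H.map G₀.subtype) G₀ := by
  rw [isPiHallOf_iff (Subgroup.map_subtype_le H)]
  simp [Subgroup.subgroupOf, Subgroup.comap_map_eq_self_of_injective G₀.subtype_injective]

theorem isEPi_iff (h : alternatingGroup α ≤ G₀) : IsEPiGroup π G₀ ↔ Cond π (Fintype.card α) := by
  constructor
  · rintro ⟨H, hH⟩
    exact cond_of_hall h (isPiHall_iff_map.1 hH)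
  · intro hc
    obtain ⟨M, hM⟩ := exists_hall h hc
    exact ⟨M.subgroupOf G₀, (isPiHallOf_iff hM.1).1 hM⟩

theorem isCPi_of_isEPi (h : alternatingGroup α ≤ G₀) (he : IsEPiGroup π G₀) : IsCPiGroup π G₀ := by
  refine ⟨he, fun H K hH hK => ?_⟩
  obtain ⟨g, hg, e⟩ := hall_conj h (isPiHall_iff_map.1 hH) (isPiHall_iff_map.1 hK)
  refine ⟨⟨g, hg⟩, Subgroup.map_injective G₀.subtype_injective ?_⟩
  rw [e, Subgroup.map_map, Subgroup.map_map]
  rfl

theorem isEPi_perm_iff : IsEPiGroup π (Perm α) ↔ Cond π (Fintype.card α) := by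
  constructor
  · rintro ⟨H, hH⟩
    exact cond_of_hall le_top (isPiHallOf_top.2 hH)
  · exact exists_hall_top

theorem isCPi_perm_of_isEPi (he : IsEPiGroup π (Perm α)) : IsCPiGroup π (Perm α) := by
  refine ⟨he, fun H K hH hK => ?_⟩
  obtain ⟨g, -, e⟩ := hall_conj (G₀ := ⊤) le_top (isPiHallOf_top.2 hH) (isPiHallOf_top.2 hK)
  exact ⟨g, e⟩

end CfsgLib.Generators.HallSym
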